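import Cfsg.Agent.Lib.He.A0

/-!
The centralizer of the central involution: lifts of the complement, normal form and the pair analysis.
-/

set_option autoImplicit false

namespace CA.He
open Subgroup CA CA.Fi CA.Ex2 CA.CoT CA.TC Cfsg Cfsg.Spor

theorem cm_iff {u v : List ℕ} : cm u v = true ↔ ev γ u * ev γ v = ev γ v * ev γ u := by
  rw [cm, eqH_iff, ev_append, ev_append]
theorem es0 : ES 6 0 γ := ⟨by decide, by decide, γ_sq 8, fun i hi => by simpa using cm_iff.1 (c_es i hi).1,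
  fun i _ => by simp [γ_sq, bt], fun i hi j hj => by
    have := eqH_iff.1 ((c_es i hi).2 j hj)
    simpa [ev, mul_assoc] using this⟩
theorem γ8 : γ 8 ≠ 1 := fun e => by
  have := (eqH_iff (u := [8]) (v := [])).2 (by simpa using e)
  rw [c_z.2] at this; cases this
theorem cz0 {a : He} (ha : a ∈ gen γ CI) : γ 8 * a = a * γ 8 :=
  cent_gen (fun i hi => by simpa using (cm_iff.1 (allL_iff.1 c_z.1 i hi)).symm) ha
theorem cjI_or (w v : ℕ) : cjI 6 w v = v ∨ cjI 6 w v = v ^^^ 64 := by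
  rcases Nat.le_one_iff_eq_zero_or_eq_one.1 (bil_le w v) with e | e <;> rw [cjI, e]
  · exact .inl (Nat.xor_zero v)
  · exact .inr rfl
theorem cjI_mod (w v : ℕ) : cjI 6 w v % 64 = v % 64 := by
  rcases cjI_or w v with e | e <;> rw [e]
  exact (Nat.xor_mod_two_pow (n := 6)).trans (Nat.xor_zero _)

section
variable {Γ : Type*} [Group Γ] {f : ℕ → Γ}

theorem nf_inj2 (h : ES 6 0 f) (hz : f 8 ≠ 1)
    (ha : ∀ j < 168, ∀ i < 6, ev f (LW j) * f i * (ev f (LW j))⁻¹ = nf 6 f (TT j i)) :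
    Function.Injective fun p : Fin 128 × Fin 168 => nf 6 f p.1 * ev f (LW p.2) := by
  rintro ⟨v, j⟩ ⟨w, k⟩ e
  have e1 : ∀ i < 6, TT j i % 64 = TT k i % 64 := fun i hi => by
    have t : ∀ j, TT j i < 2 ^ 7 := fun j => fld_lt _ _ _
    have := congrArg (fun a => a * f i * a⁻¹) e
    simp only [mul_inv_rev] at this
    rw [show ∀ a b c : Γ, a * b * c * (b⁻¹ * a⁻¹) = a * (b * c * b⁻¹) * a⁻¹ from fun a b c => by group,
      show ∀ a b c : Γ, a * b * c * (b⁻¹ * a⁻¹) = a * (b * c * b⁻¹) * a⁻¹ from fun a b c => by group,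
      ha j j.2 i hi, ha k k.2 i hi, h.nf_conj v.2 (t _), h.nf_conj w.2 (t _)] at this
    rw [← cjI_mod v, h.nf_inj hz (cjI_lt (t _)) (cjI_lt (t _)) this, cjI_mod]
  have key : ∀ j < 168, ∀ k < j, ¬ ∀ i < 6, TT j i % 64 = TT k i % 64 := fun j hj k hk e => by
    obtain ⟨i, hi, c⟩ := exL_iff.1 (allN_iff.1 (allN_iff.1 c_key j hj) k hk)
    have : Nat.beq (TT j i % 64) (TT k i % 64) = true := beq_iff.2 (e i (by simp at hi; omega))
    rw [show Nat.beq ((TT j i).mod 64) ((TT k i).mod 64) = true from this] at c; cases c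
  obtain rfl : j = k := Fin.ext (by
    rcases lt_trichotomy j.1 k.1 with l | l | l
    exacts [absurd (fun i hi => (e1 i hi).symm) (key k k.2 j l), l, absurd e1 (key j j.2 k l)])
  rw [Fin.ext (h.nf_inj hz v.2 w.2 (mul_right_cancel e))]
end

variable {G : Type*} [Group G] {g : ℕ → G}

theorem HT.congr (h : HT g) {g' : ℕ → G} (e : ∀ i ∈ qI 6, g' i = g i) : HT g' := by
  have e8 := e 8 (.head _)
  have ei : ∀ i < 6, g' i = g i := fun i hi => e i (by simp [qI, hi])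
  have eg := gen_congr e
  have en := nf_congr e
  exact ⟨h.es.congr e, by rw [eg, e8]; exact h.lq, e8 ▸ h.card, by simp only [en, e8]; exact h.zt,
    fun i hi => by rw [eg, e8, ei i (by simp at hi; omega)]; exact h.h3 i hi, fun j hj => by
      obtain ⟨y, h1, h2⟩ := h.act j hj
      exact ⟨y, e8 ▸ h1, fun i hi => by rw [en, ei i hi, e8]; exact h2 i hi⟩⟩

/-- `y` acts on the extraspecial group as the word `w` -/
def Lf (g : ℕ → G) (w : List ℕ) (y : G) : Prop := (ev γ w, y) ∈ 𝐍(𝔾 g (qI 6))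

variable [Finite G]

namespace HT
variable (h : HT g)
include h
omit [Finite G] in
theorem esp : ES 6 0 (pr γ g) := es0.prod h.es
omit [Finite G] in
theorem z1 : g 8 ≠ 1 := h.lq.ne_one
theorem funQ : Fun (𝔾 g (qI 6)) := fun_of_card (h.esp.card_le.2.trans (es0.card_eq γ8).ge)
theorem coQ : CoFun (𝔾 g (qI 6)) := cofun_of_card (h.esp.card_le.2.trans (h.es.card_eq h.z1).ge)
theorem eqz {a b : He × G} (ha : a ∈ 𝐍(𝔾 g (qI 6))) (hb : b ∈ 𝐍(𝔾 g (qI 6))) (e : a.1 = b.1) :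
    a.2 = b.2 ∨ a.2 = b.2 * g 8 := by
  have h1 : ((1 : He), b.2⁻¹ * a.2) ∈ 𝐍(𝔾 g (qI 6)) := by
    have := mul_mem (inv_mem hb) ha
    rwa [show b⁻¹ * a = (1, b.2⁻¹ * a.2) from Prod.ext (by simp [e]) rfl] at this
  have h2 : b.2⁻¹ * a.2 ∈ zpowers (g 8) := h.lq.cent_eq ▸ mem_cent_iff'.2 fun q hq => by
    obtain ⟨p, hp⟩ := exists_fst (g0 := γ) hq
    exact cent_of h.funQ h1 hp
  exact (h.lq.ez.mem_zp.1 h2).imp (fun e => (inv_mul_eq_one.1 e).symm) inv_mul_eq_iff_eq_mul.1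
omit [Finite G] in
theorem nz {a : He × G} (ha : a ∈ 𝐍(𝔾 g (qI 6))) : a.2 * g 8 = g 8 * a.2 := by
  have := le_normalizer_map (H := 𝔾 g (qI 6)) (MonoidHom.snd He G) ⟨a, ha, rfl⟩
  rw [map_snd_gen] at this
  exact mem_cent1_iff.1 (h.lq.norm_eq ▸ this)
theorem zn : ((1 : He), g 8) ∈ 𝐍(𝔾 g (qI 6)) := norm_gen fun i hi => by
  have : ((1 : He), g 8) * pr γ g i = pr γ g i * (1, g 8) :=
    Prod.ext (by simp) (h.lq.ez.comm (mem_gen g hi)).symm
  rw [this, mul_inv_cancel_right]; exact mem_gen _ hi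
theorem lfz {w : List ℕ} {y : G} (hy : Lf g w y) : Lf g w (y * g 8) := by
  simpa [Lf] using mul_mem hy h.zn
theorem lift {l : ℕ} (hl : l < 3) : ∃ y, Lf g [l + 9] y := by
  obtain ⟨c1, c2, c3, c4⟩ := c_wB l hl
  choose! y y1 y2 using h.act
  let Z : He × G := (1, g 8)
  have ZZ : Z * Z = 1 := Prod.ext (mul_one _) h.es.zz
  have hZ : zpowers Z ≤ 𝐍(𝔾 g (qI 6)) := zpowers_le.2 h.zn
  have mZ : ∀ a ∈ 𝔾 g (qI 6) ⊔ zpowers Z, a ∈ 𝔾 g (qI 6) ∨ a * Z ∈ 𝔾 g (qI 6) := fun a ha => by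
    obtain ⟨b, hb, u, hu, rfl⟩ := (mem_sup_of_norm_right hZ).1 ha
    rcases (mem_zp2 ZZ).1 hu with rfl | rfl
    · left; simpa using hb
    · right; rwa [mul_assoc, ZZ, mul_one]
  have n1 : ∀ j < 2, (ev γ (wA.getD j []), y j) ∈ 𝐍(𝔾 g (qI 6) ⊔ zpowers Z) := fun j hj =>
    mem_normalizer_of_cj_le (cj_le_iff.2 (sup_le ((gen_le _).2 fun i hi => mem_cj_inv.2 (by
      rcases List.mem_cons.1 hi with rfl | hi
      · refine mem_sup_left (?_ : _ ∈ 𝔾 g (qI 6))
        rw [show (ev γ (wA.getD j []), y j) * pr γ g 8 = pr γ g 8 * (ev γ (wA.getD j []), y j) from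
          Prod.ext (by simpa using cm_iff.1 (c_wA j hj).1) (mem_cent1_iff.1 (y1 j hj)), mul_inv_cancel_right]
        exact mem_gen _ (.head _)
      · have hi := List.mem_range.1 hi
        have e := eqH_iff.1 ((c_wA j hj).2 i hi)
        rw [ev_append, ev_nfL] at e
        have e' : ev γ (wA.getD j []) * γ i * (ev γ (wA.getD j []))⁻¹ = nf 6 γ (TA j i) :=
          mul_inv_eq_iff_eq_mul.2 (by simpa using e)
        have m := nf_mem_gen 6 (pr γ g) (TA j i)
        rw [nf_prod] at m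
        rcases y2 j hj i hi with e2 | e2
        · exact mem_sup_left (by rwa [← e', ← e2] at m)
        · have := mul_mem (mem_sup_left m) (mem_sup_right (mem_zpowers Z) : Z ∈ 𝔾 g (qI 6) ⊔ zpowers Z)
          rwa [Prod.mk_mul_mk, mul_one, ← e', ← e2] at this)) (zpowers_le.2 (mem_cj_inv.2 (by
        rw [show (ev γ (wA.getD j []), y j) * Z = Z * (ev γ (wA.getD j []), y j) from
          Prod.ext (by simp [Z]) (mem_cent1_iff.1 (y1 j hj)), mul_inv_cancel_right]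
        exact mem_sup_right (mem_zpowers Z))))))
  set a := ev (fun j => (ev γ (wA.getD j []), y j)) (wB.getD l []) with ha
  have an : a ∈ 𝐍(𝔾 g (qI 6) ⊔ zpowers Z) := ev_mem fun j hj => n1 j (c2 j hj)
  have a1 : a.1 = γ (l + 9) := by
    rw [ha, show (ev _ _ : He × G).1 = _ from map_ev (MonoidHom.fst He G) _ _]
    exact (ev_flatMap γ wA _).trans ((eqH_iff.1 c1).trans (by simp))
  have az : a.2 ∈ 𝐂[g 8] := by
    rw [ha, show (ev _ _ : He × G).2 = _ from map_ev (MonoidHom.snd He G) _ _]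
    exact ev_mem fun j hj => y1 j (c2 j hj)
  have t1 : ∀ i < 6, γ (l + 9) * γ i * (γ (l + 9))⁻¹ = nf 6 γ (tB l i) := fun i hi => by
    have e := eqH_iff.1 (c3 i hi).2
    rw [ev_nfL] at e
    exact mul_inv_eq_iff_eq_mul.2 (by simpa using e)
  have t2 : ∀ i : Fin 6, ∃ b : Bool, a.2 * g i * a.2⁻¹ = nf 6 g (tB l i) * g 8 ^ b.toNat := fun i => by
    have m := nf_mem_gen 6 (pr γ g) (tB l i)
    rw [nf_prod] at m
    rcases mZ _ (conj_mem_of_mem_normalizer an (mem_sup_left (mem_gen _ (i := i) (by simp [qI])))) with e | e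
    · exact ⟨false, by simpa using congrArg Prod.snd (h.funQ.eq e m (by simpa [a1] using t1 i i.2))⟩
    · refine ⟨true, ?_⟩
      have := congrArg Prod.snd (h.funQ.eq e m (by simpa [a1, Z] using t1 i i.2))
      simp only [Z, Prod.snd_mul, Prod.snd_inv] at this
      rw [← this, Bool.toNat_true, pow_one, mul_assoc _ (g 8), h.es.zz, mul_one]
  choose b hb using t2
  obtain ⟨w, hw, c5⟩ := exL_iff.1 (allN_iff.1 c4 _ (Nat.ofBits_lt_two_pow b))
  have hw : w < 2 ^ 7 := by have := List.mem_range.1 hw; omega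
  refine ⟨nf 6 g w * a.2, norm_gen fun i hi => ?_⟩
  rcases List.mem_cons.1 hi with rfl | hi
  · rw [show (ev γ [l + 9], nf 6 g w * a.2) * pr γ g 8 = pr γ g 8 * (ev γ [l + 9], nf 6 g w * a.2) from
      Prod.ext (cz0 (ev_gen (I := CI) (by interval_cases l <;> decide +kernel))).symm
        (mem_cent1_iff.1 (mul_mem (h.lq.ez.le_cent1 (nf_mem_gen _ _ _)) az)), mul_inv_cancel_right]
    exact mem_gen _ (.head _)
  · have hi := List.mem_range.1 hi
    have m := nf_mem_gen 6 (pr γ g) (tB l i)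
    rw [nf_prod] at m
    convert m using 1
    refine Prod.ext (by simpa using t1 i hi) ?_
    have e := beq_iff.1 (allN_iff.1 c5 i hi)
    rw [bt, Nat.testBit_ofBits_lt b i hi] at e
    have e2 := h.es.nf_comm hw (c3 i hi).1
    calc nf 6 g w * a.2 * g i * (nf 6 g w * a.2)⁻¹ = nf 6 g w * (a.2 * g i * a.2⁻¹) * (nf 6 g w)⁻¹ := by group
      _ = _ := by
        rw [hb ⟨i, hi⟩, ← mul_assoc, e2, e, mul_assoc _ (g 8 ^ _) (g 8 ^ _), ← pow_add, h.es.zpow, ← two_mul]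
        simp
end HT

/-- the letters `9, …, 14` act on the extraspecial group as in the model -/
structure SA (g : ℕ → G) : Prop extends HT g where
  nm : ∀ l ∈ LI, pr γ g l ∈ 𝐍(𝔾 g (qI 6))

namespace SA
variable (h : SA g)
include h
omit [Finite G] in
theorem nC : 𝔾 g CI ≤ 𝐍(𝔾 g (qI 6)) := (gen_le _).2 fun i hi => by
  have : ∀ i ∈ CI, i ∈ qI 6 ∨ i ∈ LI := by decide
  exact (this i hi).elim (fun hi => le_normalizer (mem_gen _ hi)) (h.nm i)
omit h [Finite G] in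
theorem inC (v : ℕ) {j : ℕ} (hj : j < 168) : inL CI (nfL v (LW j)) = true := inL_iff.2 <|
  bc_mem (by decide) <| bc_mem (by decide) <| bc_mem (by decide) <| bc_mem (by decide) <| bc_mem (by decide) <|
  bc_mem (by decide) <| bc_mem (by decide) fun c hc =>
    (by decide : ∀ i ∈ LI, i ∈ CI) c (inL_iff.1 (an_iff.1 (allN_iff.1 c_TT j hj)).1 c hc)
omit [Finite G] in
theorem Ln {j : ℕ} (hj : j < 168) : 𝔼 g (LW j) ∈ 𝐍(𝔾 g (qI 6)) :=
  ev_mem fun i hi => h.nm i (inL_iff.1 (an_iff.1 (allN_iff.1 c_TT j hj)).1 i hi)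
omit [Finite G] in
theorem cz {w : List ℕ} (c : inL CI w = true) : ev g w * g 8 = g 8 * ev g w := E_snd (g := g) ▸ h.nz (h.nC (ev_gen c))
theorem act2 {j i : ℕ} (hj : j < 168) (hi : i < 6) :
    𝔼 g (LW j) * pr γ g i * (𝔼 g (LW j))⁻¹ = nf 6 (pr γ g) (TT j i) :=
  h.funQ.eq (conj_mem_of_mem_normalizer (h.Ln hj) (mem_gen _ (by simp [qI, hi]))) (nf_mem_gen _ _ _) (by
    have e := eqH_iff.1 (allN_iff.1 (an_iff.1 (allN_iff.1 c_TT j hj)).2 i hi)
    rw [ev_nfL, ev_append] at e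
    rw [nf_prod]
    simpa [E_fst, mul_inv_eq_iff_eq_mul] using e)
theorem actG {j i : ℕ} (hj : j < 168) (hi : i < 6) : ev g (LW j) * g i * (ev g (LW j))⁻¹ = nf 6 g (TT j i) := by
  simpa [E_snd, nf_prod] using congrArg Prod.snd (h.act2 hj hi)
theorem card0 : 21504 ≤ Nat.card (gen γ CI) := by
  simpa using Nat.card_le_card_of_injective
    (fun p : Fin 128 × Fin 168 => (⟨nf 6 γ p.1 * ev γ (LW p.2), ev_nfL (f := γ) _ _ ▸ ev_gen (inC _ p.2.2)⟩ : gen γ CI))
    fun p q e => nf_inj2 es0 γ8 (fun j hj i hi => by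
      simpa [E_fst, nf_prod] using congrArg Prod.fst (h.act2 hj hi)) (congrArg Subtype.val e)
theorem NF {a : G} (ha : a * g 8 = g 8 * a) : ∃ v < 128, ∃ j < 168, a = nf 6 g v * ev g (LW j) := by
  obtain ⟨p, e⟩ := (Function.Injective.bijective_of_nat_card_le (f := fun p : Fin 128 × Fin 168 =>
    (⟨nf 6 g p.1 * ev g (LW p.2), mem_cent1_iff.2 (ev_nfL (f := g) _ _ ▸ h.cz (inC _ p.2.2))⟩ : 𝐂[g 8]))
    (fun p q e => nf_inj2 h.es h.z1 (fun j hj i hi => h.actG hj hi) (congrArg Subtype.val e))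
    (by simp [h.card])).2 ⟨a, mem_cent1_iff.2 ha⟩
  exact ⟨_, p.1.2, _, p.2.2, (congrArg Subtype.val e).symm⟩
theorem top : 𝐂[g 8] = gen g CI := le_antisymm (fun a ha => by
    obtain ⟨v, -, j, hj, rfl⟩ := h.NF (mem_cent1_iff.1 ha)
    exact ev_nfL (f := g) _ _ ▸ ev_gen (inC v hj))
  ((gen_le _).2 fun i hi => mem_cent1_iff.2 (h.nz (h.nC (mem_gen _ hi))))
theorem flt_spec {bs : List ℕ} {c P : ℕ → ℕ → Bool} (e : flt bs c P = true) {v j : ℕ} (hv : v < 128) (hj : j < 168)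
    (hb : ∀ b ∈ bs, ∀ t < 128, nf 6 g v * ev g (LW j) * nf 6 g b * (nf 6 g v * ev g (LW j))⁻¹ = nf 6 g t →
      c b t = true) : P v j = true := by
  have key : ∀ b ∈ bs, c b (cjI 6 v (au j b)) = true := fun b hb' => by
    have := h.es.conj_nf (t := TT j) (fun i _ => fld_lt _ _ _) (fun i hi => h.actG hj hi)
      (mul_inv_eq_iff_eq_mul.2 (E_snd (g := g) ▸ h.nz (h.Ln hj))) b
    refine hb b hb' _ (cjI_lt this.1) ?_
    rw [au, ← h.es.nf_conj hv this.1, ← this.2]; group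
  have := allN_iff.1 e j hj
  simp only [imp_iff, allL_iff, allN_iff, frc_eq, orB_iff] at this
  refine this (fun b hb' => ?_) v hv key
  have := key b hb'
  rcases cjI_or v (au j b) with e | e <;> rw [e] at this
  exacts [.inl this, .inr this]
end SA

end CA.He
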