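import Cfsg.Agent.Lib.He.A

/-!
The centralizer of the central involution is that of the model.
-/

set_option autoImplicit false

namespace CA.He
open Subgroup CA CA.Fi CA.Ex2 CA.CoT CA.TC Cfsg Cfsg.Spor

variable {G : Type*} [Group G] {g : ℕ → G} [Finite G]

theorem SA.pair (h : SA g) {x : ℕ} (hx : x ∈ [0, 5]) {D CQ ds S : List ℕ} {Ag : List (List ℕ)}
    (c : prB x D CQ ds S Ag = true) :
    ∃ P, Tri (gen g (qI 6)) P (g 8) (g x) ∧ ∀ w ∈ Ag, ev g w ∈ P := by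
  classical
  simp only [prB, an_iff, decide_eq_true_eq] at c
  obtain ⟨c1, c2, c3, cD, cS, cQ, cd, cA⟩ := c
  have x6 : x < 6 := by simp at hx; omega
  have xl : 2 ^ x < 128 := Nat.pow_lt_pow_right (n := 7) (by norm_num) (by omega)
  have ex : nf 6 g (2 ^ x) = g x := nf_two_pow g x6
  have ez : nf 6 g 64 = g 8 := nf_top 6 g
  have xQ : g x ∈ gen g (qI 6) := mem_gen _ (by simp [qI, x6])
  have exz : nf 6 g (2 ^ x ^^^ 64) = g 8 * g x := by
    rw [← h.lq.ez.comm xQ, ← ex]; simpa using h.es.nf_xor_top (2 ^ x) le_rfl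
  have inj := h.es.nf_inj h.z1
  obtain ⟨k, hk⟩ := isConj_iff.1 ((h.zt _ xl).2 (by simp at hx; rcases hx with rfl | rfl <;> decide +kernel))
  rw [ex] at hk
  have T := h.lq.tri (g := k) (hk ▸ xQ) (by
    rw [hk, ← ex, ← ez]; exact fun e => absurd (inj xl (by simp) e) (by simp at hx; rcases hx with rfl | rfl <;> decide))
  have h3 := h.h3 x hx k hk
  rw [hk] at T
  set Q := gen g (qI 6)
  set P := cj k Q
  have cP : Nat.card P = 128 := (card_cj _ _).trans (h.es.card_eq h.z1)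
  have eD : ∀ u < 128, nf 6 g u ∈ P → u ∈ D := fun u hu hP => by
    have hE : nf 6 g u ∈ Q ⊓ P := ⟨nf_mem_gen _ _ _, hP⟩
    have := allN_iff.1 c1 u hu
    simp only [imp_iff, beq_iff, allL_iff, CoT.memL_iff] at this
    refine this (h.es.nf_eq_one h.z1 (mulI_lt hu hu) ?_) (inj (cjI_lt hu) hu ?_) fun t ht hz => ?_
    · rw [← h.es.nf_mul hu]
      exact T.eq_one_of (T.l.ez.sq_mem hE.1) (T.r.ez.sq_mem hP)
    · rw [← h.es.nf_conj xl hu, ex, ← T.r.ez.comm hP, mul_inv_cancel_right]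
    · have t1 : t < 128 ∧ nf 6 g t ∈ Q ⊓ P := by
        simp only [List.mem_cons, List.not_mem_nil, or_false] at ht
        rcases ht with rfl | rfl | rfl | rfl
        · exact ⟨by simp, nf_zero 6 g ▸ one_mem _⟩
        · exact ⟨by simp, ez ▸ ⟨T.l.ez.mem, T.mem'⟩⟩
        · exact ⟨xl, ex ▸ ⟨T.mem, T.r.ez.mem⟩⟩
        · exact ⟨Nat.xor_lt_two_pow (n := 7) xl (by simp), exz ▸ mul_mem ⟨T.l.ez.mem, T.mem'⟩ ⟨T.mem, T.r.ez.mem⟩⟩
      have l := mulI_lt (n := 6) (ε := 0) hu t1.1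
      have := h3 _ (h.es.nf_mul hu t ▸ mul_mem hE t1.2) ((h.zt _ l).2 hz)
      rw [← exz, ← ez, ← ex] at this
      simp only [List.mem_cons, List.not_mem_nil, or_false]
      exact this.imp (inj l (by simp)) (.imp (inj l xl) (inj l (Nat.xor_lt_two_pow (n := 7) xl (by simp))))
  set A := P ⊓ 𝐂[g 8]
  have cA' : Nat.card A = 64 := by
    have := T.r.ez.card_cent1 T.mem' T.symm.not_mem
    rw [cP] at this; change Nat.card A * 2 = 128 at this; omega
  have sub : ((A ⊓ Q : Subgroup G) : Set G) ⊆ (D.toFinset.image (nf 6 g) : Finset G) := fun q hq => by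
    obtain ⟨u, hu, rfl⟩ := h.es.exists_nf hq.2
    exact Finset.mem_coe.2 (Finset.mem_image_of_mem _ (List.mem_toFinset.2 (eD u hu hq.1.1)))
  have cI : ((D.toFinset.image (nf 6 g) : Finset G) : Set G).ncard ≤ 16 := by
    rw [Set.ncard_coe_finset]
    exact Finset.card_image_le.trans ((List.toFinset_card_le D).trans cD.le)
  have cE : Nat.card ↥(A ⊓ Q) ≤ 16 := (Set.ncard_le_ncard sub).trans cI
  choose! v hv j hj e using fun a (ha : a ∈ A) => h.NF (mem_cent1_iff.1 ha.2)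
  have cnt : ∀ S' : Finset ℕ, (∀ a ∈ A, j a ∈ S') → 64 ≤ S'.card * Nat.card ↥(A ⊓ Q) := fun S' hS =>
    cA' ▸ TC.card_le_of_fiber A Q j S' hS fun n hn m hm e' => by
      have := conj_inv_mem_of_mem_normalizer (h.lq.le_norm (mem_cent1_iff.2 (E_snd (g := g) ▸ h.nz (h.Ln (hj m hm)))))
        (mul_mem (inv_mem (nf_mem_gen 6 g (v n))) (nf_mem_gen 6 g (v m)))
      rw [e n hn, e m hm, e']
      simpa [mul_assoc] using this
  have jS : ∀ a ∈ A, j a ∈ S := fun a ha => CoT.memL_iff.1 (h.flt_spec c2 (hv a ha) (hj a ha) fun b hb t ht et => by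
    obtain ⟨b1, b2, b3⟩ := cQ b hb
    have bx : nf 6 g b ∈ 𝐂[g x] := by
      rw [mem_cent1_comm, mem_cent1_iff, ← mul_inv_eq_iff_eq_mul, ← ex, h.es.nf_conj xl b1, b2]
    have bb : (nf 6 g b)⁻¹ = nf 6 g b := inv_eq_of_mul_eq_one_right (by rw [h.es.nf_mul b1, b3, nf_zero])
    refine CoT.memL_iff.2 (eD _ (mulI_lt ht b1) ?_)
    have := mul_mem ha.1 (conj_mem_of_mem_normalizer (T.r.le_norm bx) (inv_mem ha.1))
    rw [← h.es.nf_mul ht, ← et, ← e a ha]
    simpa [bb, mul_assoc] using this)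
  have cS' : S.toFinset.card ≤ 4 := (List.toFinset_card_le S).trans cS.le
  have DP : ∀ u ∈ D, nf 6 g u ∈ P := fun u hu => by
    have := cnt _ fun a ha => List.mem_toFinset.2 (jS a ha)
    have := Set.eq_of_subset_of_ncard_le sub (cI.trans (by change 16 ≤ Nat.card ↥(A ⊓ Q); nlinarith))
    exact (this.ge (Finset.mem_coe.2 (Finset.mem_image_of_mem _ (List.mem_toFinset.2 hu)))).1.1
  refine ⟨P, T, fun w hw => ?_⟩
  rcases cA w hw with ⟨u, hu, rfl⟩ | ⟨i, hi, rfl⟩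
  · simpa [ev_nfL] using DP u hu
  obtain ⟨a, ha, rfl⟩ : ∃ a ∈ A, j a = i := by
    by_contra hn
    have := cnt (S.toFinset.erase i) fun a ha =>
      Finset.mem_erase.2 ⟨fun e => hn ⟨a, ha, e⟩, List.mem_toFinset.2 (jS a ha)⟩
    rw [Finset.card_erase_of_mem (List.mem_toFinset.2 hi)] at this
    have : 64 ≤ 3 * 16 := this.trans (Nat.mul_le_mul (by omega) cE)
    omega
  have := DP _ (CoT.memL_iff.1 (h.flt_spec c3 (hv a ha) (hj a ha) fun b hb t ht et => by
    obtain ⟨b1, b2⟩ := cd b hb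
    rw [← e a ha] at et
    rw [orB_iff, beq_iff, beq_iff]
    refine (T.r.ez.conj_or ha.1 (DP b b2)).imp (fun e => inj ht b1 (et.symm.trans e)) fun e =>
      inj ht (mulI_lt b1 xl) ?_
    rw [← et, e, ← h.es.nf_mul b1, ex]))
  rw [← mul_mem_cancel_left this, ← e a ha]; exact ha.1

theorem SA.sq10 (h : SA g) : g 10 * g 10 = 1 := by
  obtain ⟨P, T, hP⟩ := h.pair (.head _) c_pr1
  have n := h.nm 10 (by decide)
  have h1 := h.eqz (mul_mem n n) (one_mem _) (γ_sq 10)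
  have h2 := T.r.ez.sq_mem (x := g 10) (by simpa using hP [10] (by decide))
  exact h1.elim id fun e => T.eq_one_of (T.l.ez.mem_zp.2 (.inr (by simpa using e))) h2

/-- the letters of the complement, from three generators -/
def mkL (g : ℕ → G) (a b c : G) (i : ℕ) : G := if 9 ≤ i then ev ([a, b, c].getD · 1) (w3 (i - 9)) else g i
/-- the pairs of three generators -/
noncomputable def p3 (a b c : G) (k : ℕ) : He × G := [(γ 9, a), (γ 10, b), (γ 11, c)].getD k 1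

omit [Finite G] in
theorem pr_mk (a b c : G) {l : ℕ} (hl : l < 6) : pr γ (mkL g a b c) (l + 9) = ev (p3 a b c) (w3 l) := by
  obtain ⟨c1, c2⟩ := c_w3 l hl
  refine Prod.ext ?_ ?_
  · rw [show (ev _ _ : He × G).1 = _ from map_ev (MonoidHom.fst He G) _ _]
    refine (show _ = _ by simpa [← ev_map] using eqH_iff.1 c1).trans (ev_congr fun i hi => ?_)
    have := c2 i hi
    interval_cases i <;> rfl
  · rw [show (ev _ _ : He × G).2 = _ from map_ev (MonoidHom.snd He G) _ _]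
    refine (show mkL g a b c (l + 9) = ev ([a, b, c].getD · 1) (w3 l) from if_pos (Nat.le_add_left 9 l)).trans (ev_congr fun i hi => ?_)
    have := c2 i hi
    interval_cases i <;> rfl
omit [Finite G] in
theorem mk_q (a b c : G) : ∀ i ∈ qI 6, mkL g a b c i = g i := fun i hi =>
  if_neg (by revert i; decide)
omit [Finite G] in
theorem mk_gen (a b c : G) : 𝔾 (mkL g a b c) (qI 6) = 𝔾 g (qI 6) :=
  gen_congr fun i hi => Prod.ext rfl (mk_q a b c i hi)
omit [Finite G] in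
theorem p3_mem {a b c : G} (ha : Lf g [9] a) (hb : Lf g [10] b) (hc : Lf g [11] c) (k : ℕ) :
    p3 a b c k ∈ 𝐍(𝔾 g (qI 6)) := by
  match k with
  | 0 => simpa [Lf, p3] using ha
  | 1 => simpa [Lf, p3] using hb
  | 2 => simpa [Lf, p3] using hc
  | k + 3 => exact one_mem _
omit [Finite G] in
theorem HT.mkSA (h : HT g) {a b c : G} (ha : Lf g [9] a) (hb : Lf g [10] b) (hc : Lf g [11] c) :
    SA (mkL g a b c) := ⟨h.congr (mk_q a b c), fun l hl => by
  obtain ⟨l, h6, rfl⟩ := (by decide : ∀ l ∈ LI, ∃ k < 6, l = k + 9) l hl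
  rw [mk_gen, pr_mk a b c h6]; exact ev_mem fun k _ => p3_mem ha hb hc k⟩

omit [Finite G] in
theorem Lf.mul {u w : List ℕ} {a b : G} (ha : Lf g u a) (hb : Lf g w b) : Lf g (u ++ w) (a * b) := by
  simpa [Lf] using mul_mem ha hb

theorem HT.invl (h : HT g) {w : List ℕ} {j : ℕ} (hj : j < 168) (c : eqH (LW j ++ [10]) (w ++ LW j) = true)
    {y : G} (hy : Lf g w y) : y * y = 1 := by
  obtain ⟨a, ha⟩ := h.lift (l := 0) (by simp)
  obtain ⟨b, hb⟩ := h.lift (l := 1) (by simp)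
  obtain ⟨d, hd⟩ := h.lift (l := 2) (by simp)
  have S := h.mkSA ha hb hd
  have n := mul_mem (mul_mem (S.Ln hj) (S.nm 10 (by decide))) (inv_mem (S.Ln hj))
  rw [mk_gen] at n
  have e := eqH_iff.1 c
  have s : ∀ k t : G, t * t = 1 → k * t * k⁻¹ * (k * t * k⁻¹) = 1 := fun k t e => by
    rw [conj_mul, e]; simp
  rcases h.eqz hy n (by simpa [E_fst, eq_mul_inv_iff_mul_eq] using e.symm) with e | e
  · rw [show y = _ from e]; exact s _ _ S.sq10
  · rw [show y = _ from e, mul_assoc, ← mul_assoc (g 8), ← h.nz n, mul_assoc _ (g 8), h.es.zz, mul_one]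
    exact s _ _ S.sq10

theorem HT.cube (h : HT g) {w : List ℕ} (c : eqH (pw w 3) [] = true) {y : G} (hy : Lf g w y) :
    y ^ 3 = 1 ∨ (y * g 8) ^ 3 = 1 :=
  (h.eqz (pow_mem hy 3) (one_mem _) (by simpa [ev_pw] using eqH_iff.1 c)).imp_right fun e => by
    rw [(show Commute y (g 8) from h.nz hy).mul_pow, show y ^ 3 = _ from e, pow_succ, pow_two, h.es.zz]
    simpa using h.es.zz

/-- the centralizer of the central involution is that of the model -/
structure SC (g : ℕ → G) : Prop extends SA g where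
  fn : Fun (𝔾 g CI)
  co : CoFun (𝔾 g CI)

theorem HT.mkSC (h : HT g) {a b c : G} (ha : Lf g [9] a) (hb : Lf g [10] b) (hc : Lf g [11] c)
    (r1 : (a * b) ^ 3 = 1) (r2 : (a * c) ^ 3 = 1) (r3 : (a * (b * c * (b * c))) ^ 3 = 1) : SC (mkL g a b c) := by
  obtain ⟨c1, c2, c3, c4, c5, c6⟩ := c_inv3
  have S := h.mkSA ha hb hc
  have r4 := h.invl (by decide) c3 ((hb.mul hc).mul (hb.mul hc))
  have sq : ∀ k, p3 a b c k * p3 a b c k = 1 := fun k => by
    match k with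
    | 0 => exact Prod.ext (γ_sq _) (h.invl (by decide) c1 ha)
    | 1 => exact Prod.ext (γ_sq _) (h.invl (j := 0) (by decide) (eqH_iff.2 rfl) hb)
    | 2 => exact Prod.ext (γ_sq _) (h.invl (by decide) c2 hc)
    | k + 3 => exact mul_one _
  have K := (l32h_card sq rfl (H := ⊥) (K := closure (p3 a b c '' Set.Iio 3)) (m := 1) (fun w hw => by
    have e12 := eqH_iff.1 (c_w3 3 (by decide)).1
    simp only [l32h_rels, List.mem_cons, List.not_mem_nil, or_false] at hw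
    rcases hw with rfl | rfl | rfl | rfl <;> refine Prod.ext ?_ ?_
    · simpa [p3, pw] using eqH_iff.1 c4
    · simpa [p3, pow_succ, mul_assoc] using r1
    · simpa [p3, pw] using eqH_iff.1 c5
    · simpa [p3, pow_succ, mul_assoc] using r2
    · simpa [p3, show γ 12 = _ by simpa [w3] using e12, mul_assoc] using γ_sq 12
    · simpa [p3, mul_assoc] using r4
    · simpa [p3, pw] using eqH_iff.1 c6
    · simpa [p3, pow_succ, mul_assoc] using r3) (by simp [l32h_sws]) le_rfl ⟨inferInstance, by simp⟩).2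
  have n : closure (p3 a b c '' Set.Iio 3) ≤ 𝐍(𝔾 g (qI 6)) := (closure_le _).2 (by
    rintro _ ⟨k, -, rfl⟩; exact p3_mem ha hb hc k)
  have l : 𝔾 (mkL g a b c) CI ≤ 𝔾 g (qI 6) ⊔ closure (p3 a b c '' Set.Iio 3) := (gen_le _).2 fun i hi => by
    rcases (by decide : ∀ i ∈ CI, i ∈ qI 6 ∨ ∃ k < 6, i = k + 9) i hi with hi | ⟨k, hk, rfl⟩
    · exact mem_sup_left (mk_gen a b c ▸ mem_gen _ hi)
    · rw [pr_mk a b c hk]
      exact mem_sup_right (ev_mem fun i hi => subset_closure ⟨i, (c_w3 k hk).2 i hi, rfl⟩)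
  have u : Nat.card (𝔾 (mkL g a b c) CI) ≤ 21504 := (card_le_of_le l).trans ((card_sup_le_of_norm n).trans
    (Nat.mul_le_mul h.esp.card_le.2 K))
  exact ⟨S, fun_of_card (u.trans S.card0), cofun_of_card (u.trans (S.top ▸ S.card.ge))⟩

theorem HT.exSC (h : HT g) : ∃ g' : ℕ → G, SC g' := by
  obtain ⟨c1, c2, c3, c4, c5, c6⟩ := c_inv3
  obtain ⟨a, ha⟩ := h.lift (l := 0) (by simp)
  have fix : ∀ l < 3, eqH (pw [9, l + 9] 3) [] = true → ∃ b, Lf g [l + 9] b ∧ (a * b) ^ 3 = 1 := fun l hl c => by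
    obtain ⟨b, hb⟩ := h.lift hl
    rcases h.cube c (ha.mul hb) with e | e
    exacts [⟨b, hb, e⟩, ⟨_, h.lfz hb, mul_assoc a b _ ▸ e⟩]
  obtain ⟨b, hb, r1⟩ := fix 1 (by simp) c4
  obtain ⟨c, hc, r2⟩ := fix 2 (by simp) c5
  rcases h.cube c6 (ha.mul ((hb.mul hc).mul (hb.mul hc))) with e | e
  · exact ⟨_, h.mkSC ha hb hc r1 r2 e⟩
  have m : ∀ {u w : List ℕ} {x y : G}, Lf g w y → x * g 8 * (y * g 8) = x * y := fun hy => by
    rw [mul_assoc, ← mul_assoc (g 8), ← h.nz hy, mul_assoc _ (g 8), h.es.zz, mul_one]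
  refine ⟨_, h.mkSC (h.lfz ha) (h.lfz hb) (h.lfz hc) (by rwa [m (u := []) hb]) (by rwa [m (u := []) hc]) ?_⟩
  rwa [m (u := []) hc, mul_assoc, ← h.nz ((hb.mul hc).mul (hb.mul hc)), ← mul_assoc]

omit [Finite G] in
theorem SC.congr (h : SC g) {g' : ℕ → G} (e : ∀ i ∈ CI, g' i = g i) : SC g' := by
  have e1 : ∀ i ∈ qI 6, g' i = g i := fun i hi => e i ((by decide : ∀ i ∈ qI 6, i ∈ CI) i hi)
  have e2 : 𝔾 g' CI = 𝔾 g CI := gen_congr fun i hi => Prod.ext rfl (e i hi)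
  refine ⟨⟨h.toHT.congr e1, fun l hl => ?_⟩, e2 ▸ h.fn, e2 ▸ h.co⟩
  rw [show 𝔾 g' (qI 6) = 𝔾 g (qI 6) from gen_congr fun i hi => Prod.ext rfl (e1 i hi),
    show pr γ g' l = pr γ g l from Prod.ext rfl (e l ((by decide : ∀ i ∈ LI, i ∈ CI) l hl))]
  exact h.nm l hl

/-- the check for a centralizer -/
noncomputable def cenC (bs : List ℕ) (W : List (List ℕ)) (P : List ℕ → Bool) : Bool :=
  an (decide ([8] ∈ W ∧ ∀ b ∈ bs, b < 128 ∧ nfL b [] ∈ W)) (an (allL (inL CI) W)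
    (flt bs (fun b t => Nat.beq t b) fun v j => imp (allL (cm (nfL v (LW j))) W) (P (nfL v (LW j)))))

theorem SC.cen (h : SC g) {bs : List ℕ} {W : List (List ℕ)} {P : List ℕ → Bool} (c : cenC bs W P = true) {a : G}
    (ha : ∀ w ∈ W, a * ev g w = ev g w * a) : ∃ w, inL CI w = true ∧ a = ev g w ∧ P w = true := by
  simp only [cenC, an_iff, decide_eq_true_eq] at c
  obtain ⟨⟨c1, c2⟩, c3, c4⟩ := c
  obtain ⟨v, hv, j, hj, e⟩ := h.NF (a := a) (by simpa using ha _ c1)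
  have i := SA.inC v hj
  rw [← ev_nfL] at e
  refine ⟨_, i, e, imp_iff.1 (h.flt_spec c4 hv hj fun b hb t ht et => beq_iff.2 (h.es.nf_inj h.z1 ht (c2 b hb).1 ?_))
    (allL_iff.2 fun w hw => ?_)⟩
  · have := ha _ (c2 b hb).2
    rw [ev_nfL, ev_nil, mul_one] at this
    rw [← et, ← ev_nfL, ← e, this, mul_inv_cancel_right]
  · have w1 := ev_gen (f := pr γ g) (allL_iff.1 c3 w hw)
    exact co_cm h.co (mul_mem (mul_mem (ev_gen i) w1) (inv_mem (ev_gen i))) w1 (e ▸ ha w hw)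

theorem SC.cenU (h : SC g) {bs : List ℕ} {W U : List (List ℕ)}
    (c : cenC bs W (fun w => exL (eqI CI w) U) = true) {a : G}
    (ha : ∀ w ∈ W, a * ev g w = ev g w * a) : ∃ u ∈ U, a = ev g u := by
  obtain ⟨w, -, rfl, c⟩ := h.cen c ha
  obtain ⟨u, hu, c⟩ := exL_iff.1 c
  exact ⟨u, hu, eqG h.fn c⟩

end CA.He
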