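import Cfsg.Agent.Lib.He.A2

/-!
The normalizers of the four-groups: general steps.
-/

set_option autoImplicit false

namespace CA.He
open Subgroup CA CA.Fi CA.Ex2 CA.CoT CA.TC Cfsg Cfsg.Spor

theorem CW_cons {Γ : Type*} [Group Γ] (f : ℕ → Γ) (a : List ℕ) (W : List (List ℕ)) :
    CW f (a :: W) = CW f W ⊔ zpowers (ev f a) :=
  le_antisymm (CW_le.2 (List.forall_mem_cons.2 ⟨mem_sup_right (mem_zpowers _), fun _ hw => mem_sup_left (mem_CW hw)⟩))
    (sup_le (CW_le.2 fun _ hw => mem_CW (.tail _ hw)) (zpowers_le.2 (mem_CW (.head _))))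

variable {G : Type*} [Group G] {g : ℕ → G} [Finite G] {x c : ℕ} {A us W M U U' : List (List ℕ)} {bs m m' t : List ℕ}

theorem SA.zN (h : SA g) (i : allL (inL CI) A = true) : ((1 : He), g 8) ∈ 𝐍(𝕎 g A) := norm_CW fun w hw => by
  rw [show ((1 : He), g 8) * 𝔼 g w = 𝔼 g w * (1, g 8) from
    Prod.ext (by simp) (by simpa [E_snd] using (h.cz (allL_iff.1 i w hw)).symm), mul_inv_cancel_right]
  exact mem_CW hw

/-- the check for the choice of the new letter -/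
noncomputable def excB (x c : ℕ) (A : List (List ℕ)) : Bool :=
  an (allL (inL CI) A) (an (decide (A.length = 6 ∧ A.getD 0 [] = [8] ∧ A.getD 1 [] = [x]))
    (allN (fun e => imp (an (tb e 0) (!tb e 1)) (exL (fun u => allN (fun k =>
      eqH (c :: (A.getD k [] ++ c :: u)) (u ++ (A.getD k [] ++ bc e k x []))) 6) (subs A))) 64))

theorem SC.exc (h : SC g) (hx : x ∈ [0, 5]) {D CQ ds S : List ℕ} (c1 : prB x D CQ ds S A = true)
    (c2 : excB x c A = true) : ∃ y : G, y * y = 1 ∧ (γ c, y) ∈ 𝐍(𝕎 g A) := by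
  obtain ⟨P, T, hP⟩ := h.pair hx c1
  simp only [excB, an_iff, decide_eq_true_eq] at c2
  obtain ⟨i, ⟨l, a0, a1⟩, c2⟩ := c2
  obtain ⟨y, hy, e⟩ := T.exc
  have mA : ∀ k < 6, A.getD k [] ∈ A := fun k hk => by
    rw [List.getD_eq_getElem _ _ (l ▸ hk)]; exact List.getElem_mem _
  have : ∀ k : Fin 6, ∃ b : Bool, y * ev g (A.getD k []) * y⁻¹ = ev g (A.getD k []) * g x ^ b.toNat ∧
      (k = 0 → b = true) ∧ (k = 1 → b = false) := fun k => by
    by_cases k0 : k = 0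
    · exact ⟨true, by simpa [k0, -List.getD_eq_getElem?_getD, a0] using e, fun _ => rfl, by simp [k0]⟩
    by_cases k1 : k = 1
    · exact ⟨false, by simp [k1, -List.getD_eq_getElem?_getD, a1, T.r.ez.comm hy], by simp [k1], fun _ => rfl⟩
    rcases T.r.ez.conj_or hy (hP _ (mA k k.2)) with e | e
    · exact ⟨false, by simpa using e, by simp [k0], by simp⟩
    · exact ⟨true, by simpa using e, by simp, by simp [k1]⟩
  choose b hb b0 b1 using this
  obtain ⟨u, hu, c3⟩ := exL_iff.1 (imp_iff.1 (allN_iff.1 c2 _ (Nat.ofBits_lt_two_pow b)) (by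
    rw [an_iff, tb_eq, tb_eq, Nat.testBit_ofBits_lt b 0 (by simp), Nat.testBit_ofBits_lt b 1 (by simp)]
    exact ⟨b0 _ rfl, by rw [show b ⟨1, _⟩ = false from b1 1 rfl]; rfl⟩))
  have uP := subs_mem hP hu
  have uA : 𝔼 g u ∈ 𝕎 g A := subs_mem (fun _ => mem_CW) hu
  have n : (γ c, y * ev g u) ∈ 𝐍(𝕎 g A) := norm_CW fun w hw => by
    obtain ⟨k, hk, rfl⟩ := List.getElem_of_mem hw
    rw [← List.getD_eq_getElem _ [] hk] at hw ⊢
    have e3 := eqH_iff.1 (allN_iff.1 c3 k (l ▸ hk))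
    have xA : pr γ g x ∈ 𝕎 g A := by simpa [-List.getD_eq_getElem?_getD, a1] using mem_CW (f := pr γ g) (mA 1 (by simp))
    simp only [ev_cons, ev_append, ev_bc, ev_nil, mul_one, bt, Nat.testBit_ofBits_lt b k (l ▸ hk)] at e3
    convert mul_mem (mul_mem uA (mul_mem (mem_CW hw) (pow_mem xA (b ⟨k, l ▸ hk⟩).toNat))) (inv_mem uA) using 1
    refine Prod.ext ?_ ?_
    · simp only [Prod.fst_mul, Prod.fst_inv, E_fst, Prod.pow_fst, ← e3, inv_eq_of_mul_eq_one_right (γ_sq c)]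
      group
    · simp only [Prod.snd_mul, Prod.snd_inv, E_snd, Prod.pow_snd]
      have e4 := hb ⟨k, l ▸ hk⟩
      have cu : Commute (ev g u) (g x) := T.r.ez.comm uP
      have cy : Commute y (g x) := T.r.ez.comm hy
      rw [← mul_assoc (ev g u), mul_assoc _ _ (ev g u)⁻¹, ← (cu.inv_left.pow_right _).eq, ← mul_assoc,
        show ∀ a, y * ev g u * a * (y * ev g u)⁻¹ = y * (ev g u * a * (ev g u)⁻¹) * y⁻¹ from fun a => by group]
      rcases T.r.ez.conj_or uP (hP _ hw) with e | e <;> rw [e]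
      · exact e4
      · rw [← mul_assoc, mul_assoc _ (g x), ← cy.inv_left.eq, ← mul_assoc, e4, mul_assoc, mul_assoc, ← pow_succ,
          pow_succ']
  rcases T.r.ez.sq_or (mul_mem hy uP) with s | s
  · exact ⟨_, s, n⟩
  refine ⟨_, ?_, by simpa using mul_mem n (h.zN i)⟩
  have uz : ev g u * g 8 = g 8 * ev g u := mem_cent1_iff.1 (h.top ▸ CW_gen i (subs_mem (fun _ => mem_CW) hu))
  calc y * ev g u * g 8 * (y * ev g u * g 8) = y * g 8 * y⁻¹ * (y * ev g u * (y * ev g u)) * g 8 := by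
        rw [mul_assoc y (ev g u) (g 8)]; nth_rw 1 [uz]; simp only [mul_assoc, inv_mul_cancel_left]
    _ = 1 := by rw [e, s, mul_assoc (g 8), T.xsq, mul_one, T.zsq]

/-- the properties of the new letter -/
structure SP (g : ℕ → G) (c : ℕ) (A : List (List ℕ)) : Prop where
  sq : g c * g c = 1
  nm : pr γ g c ∈ 𝐍(𝕎 g A)

/-- the checks for the action of `M` on `A` -/
noncomputable def dlB (x : ℕ) (bs : List ℕ) (A M U : List (List ℕ)) : Bool :=
  an (cenC bs A fun w => exL (eqI CI w) (subs [[8], [x]]))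
    (an (allL (inL CI) A) (an (allL (inL CI) M) (allL (fun m => nrmB A m U) M)))

theorem SC.dl (h : SC g) (p : SP g c A) (d : dlB x bs A M U = true) (hm : 𝔼 g m ∈ 𝕎 g M) (hm' : 𝔼 g m' ∈ 𝕎 g M)
    (e : eqH (c :: m) (m' ++ [c]) = true) : ∃ u ∈ subs [[8], [x]], g c * ev g m * (g c)⁻¹ = ev g (u ++ m') := by
  simp only [dlB, an_iff] at d
  obtain ⟨d1, d2, d3, d4⟩ := d
  have n : 𝕎 g M ≤ 𝐍(𝕎 g A) := CW_le.2 fun w hw =>
    nrm' h.fn (CW_gen d2) (ev_gen (allL_iff.1 d3 w hw)) (allL_iff.1 d4 w hw)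
  have := mul_mem (mul_mem (mul_mem p.nm (n hm)) (inv_mem p.nm)) (inv_mem (n hm'))
  rw [show pr γ g c * 𝔼 g m * (pr γ g c)⁻¹ * (𝔼 g m')⁻¹ = (1, g c * ev g m * (g c)⁻¹ * (ev g m')⁻¹) from
    Prod.ext (by simp [E_fst, show γ c * ev γ m = _ by simpa using eqH_iff.1 e]) (by simp [E_snd])] at this
  obtain ⟨u, hu, e⟩ := h.cenU d1 (cent_CW (h.fn.mono (CW_gen d2)) this)
  exact ⟨u, hu, by rw [ev_append, ← e, inv_mul_cancel_right]⟩

omit [Finite G] in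
theorem cj_eq (e : eqH (c :: m) (m' ++ [c]) = true) (e' : g c * ev g m * (g c)⁻¹ = ev g m') :
    pr γ g c * 𝔼 g m * (pr γ g c)⁻¹ = 𝔼 g m' :=
  Prod.ext (by simp [E_fst, show γ c * ev γ m = _ by simpa using eqH_iff.1 e]) (by simpa [E_snd] using e')

/-- the check for the elements of order three -/
noncomputable def kuB (x c : ℕ) (us U : List (List ℕ)) : Bool :=
  allL (fun m => an (eqI CI (pw m 3) []) (exL (fun v => an (eqH (c :: m) (flW us v ++ [c]))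
    (allL (fun u => an (inL CI (pw (u ++ flW us v) 3)) (imp (eqH (pw (u ++ flW us v) 3) []) (decide (u = []))))
      (subs [[8], [x]]))) U)) us

theorem SC.ku (h : SC g) (p : SP g c A) (d : dlB x bs A (t :: us) U = true) (k : kuB x c us U' = true) :
    cj (pr γ g c) (𝕎 g us) ≤ 𝔾 g CI := cj_CW fun m hm => by
  obtain ⟨k1, k2⟩ := an_iff.1 (allL_iff.1 k m hm)
  obtain ⟨v, -, k2⟩ := exL_iff.1 k2
  obtain ⟨k2, k3⟩ := an_iff.1 k2
  have l : 𝕎 g us ≤ 𝕎 g (t :: us) := CW_le.2 fun _ hw => mem_CW (.tail _ hw)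
  obtain ⟨u, hu, e⟩ := h.dl p d (mem_CW (.tail _ hm)) (l (fl_mem v)) k2
  obtain ⟨k3, k4⟩ := an_iff.1 (allL_iff.1 k3 u hu)
  obtain rfl : u = [] := of_decide_eq_true (imp_iff.1 k4 (coE h.co (ev_gen k3) (one_mem _) (by
    rw [ev_pw, ← e, conj_pow, ← ev_pw, eqG h.fn k1]; simp)))
  rw [cj_eq k2 e]
  exact CW_gen (an_iff.1 (an_iff.1 (an_iff.1 d).2).2).1 (l (fl_mem v))

/-- the check for a fusion chain -/
noncomputable def fuB (c : ℕ) (us : List (List ℕ)) (w k v : List ℕ) (a : ℕ) : Bool :=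
  an (eqI CI (k ++ w) (flW us v ++ k)) (eqH ([c] ++ flW us v) (nfL a [] ++ [c]))

omit [Finite G] in
theorem SC.fus (h : SC g) (K : cj (pr γ g c) (𝕎 g us) ≤ 𝔾 g CI) {w k v : List ℕ} {a : ℕ}
    (f : fuB c us w k v a = true) : IsConj (ev g w) (nf 6 g a) := by
  obtain ⟨f1, f2⟩ := an_iff.1 f
  have e1 := eqG h.fn f1
  have e2 := congrArg Prod.snd (cj_mem h.fn (by simpa using K (conj_mem_cj.2 (fl_mem v)))
    (ev_gen (SA.inC a (j := 0) (by simp))) f2)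
  refine (isConj_iff.2 ⟨ev g k, mul_inv_eq_iff_eq_mul.2 (by simpa using e1)⟩).trans (isConj_iff.2 ⟨g c, ?_⟩)
  simpa [E_snd, ev_nfL, nf_prod, show LW 0 = [] from rfl] using e2

/-- the check for the involution -/
noncomputable def ktB (x c : ℕ) (A U : List (List ℕ)) (t : List ℕ) (a b : ℕ) : Bool :=
  an (eqH (c :: t) (t ++ [c])) (an (inW A (subs [[8], [x]]) U) (an (allL (fun u => an (inL CI u)
    (an (eqI CI (u ++ u) []) (imp (cm [c] u) (decide (u = [] ∨ u = [x]))))) (subs [[8], [x]]))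
    (decide (a < 128 ∧ b < 128 ∧ tb ZT a = false ∧ tb ZT b = true))))

theorem SC.kt (h : SC g) (p : SP g c A) (d : dlB x bs A (t :: us) U = true) {a b : ℕ} (k : ktB x c A U' t a b = true)
    (K : cj (pr γ g c) (𝕎 g us) ≤ 𝔾 g CI) (f1 : IsConj (ev g t) (nf 6 g a))
    (f2 : IsConj (ev g (x :: t)) (nf 6 g b)) : cj (pr γ g c) (𝕎 g (t :: us)) ≤ 𝔾 g CI :=
  cj_CW (List.forall_mem_cons.2 ⟨by
    simp only [ktB, an_iff, decide_eq_true_eq, allL_iff] at k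
    obtain ⟨k1, k2, k3, a1, b1, a2, b2⟩ := k
    have iA := CW_gen (f := pr γ g) (an_iff.1 (an_iff.1 d).2).1
    obtain ⟨u, hu, e⟩ := h.dl p d (mem_CW (.head _)) (mem_CW (.head _)) k1
    obtain ⟨u1, u2, u3⟩ := k3 u hu
    have uA := le_of_inW h.fn iA (CW_le.2 fun w hw => ev_gen (k3 w hw).1) k2 (mem_CW hu)
    have e2 : ev g u * ev g u = 1 := by simpa using eqG h.fn u2
    have ci := inv_eq_of_mul_eq_one_right p.sq
    rcases of_decide_eq_true (imp_iff.1 u3 (co_cm h.co (by simpa using iA (conj_mem_of_mem_normalizer p.nm uA)) (iA uA) (by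
      have e3 : ev g u = g c * ev g t * g c * (ev g t)⁻¹ := by
        rw [eq_mul_inv_iff_mul_eq, ← ev_append, ← e, ci]
      rw [ev_cons, ev_nil, mul_one]
      nth_rw 2 [← inv_eq_of_mul_eq_one_right e2]
      rw [e3]; simp [ci, ← mul_assoc, p.sq, mul_assoc _ (g c) (g c)]))) with rfl | rfl
    · rw [cj_eq k1 e]; exact CW_gen (an_iff.1 (an_iff.1 (an_iff.1 d).2).2).1 (mem_CW (.head _))
    · have := (h.zt a a1).1 (((h.zt b b1).2 b2).trans (f2.symm.trans ((isConj_iff.2 ⟨_, e⟩).symm.trans f1)))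
      exact absurd (a2 ▸ this) Bool.false_ne_true, fun _ hw => K (conj_mem_cj.2 (mem_CW hw))⟩)

/-- the result for one four-group -/
structure SB (g : ℕ → G) (y : List ℕ) (W : List (List ℕ)) (I : List ℕ) : Prop where
  fn : Fun (𝕎 g (y :: W))
  cen : ∀ δ, (∀ w ∈ y :: W, δ * ev g w = ev g w * δ) → δ = 1
  le : 𝔾 g I ≤ 𝐍(𝕎 g (y :: W))

omit [Finite G] in
theorem SB.fnN {y I : List ℕ} (h : SB g y W I) : Fun (𝔾 g I) := fun_ext h.fn h.cen h.le

/-- the checks for the normalizer of the four-group -/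
noncomputable def sbB (c : ℕ) (bs WI I : List ℕ) (M U1 U2 U3 : List (List ℕ)) : Bool :=
  an (allL (inL CI) M) (an (allL (fun i => inL CI [i]) (WI ++ I)) (an (inW M (WI.map ([·])) U1)
  (an (allL (fun m => nrmB (WI.map ([·])) m U2) ([c] :: [1, 4] :: M))
  (an (cenC bs (WI.map ([·])) fun w => an (inL WI w) (imp (cm [1, 4, c] w) (eqH w [])))
  (an (eqH (pw [1, 4, c] 3) []) (an (!cm [8] [1, 4, c])
  (an (allL (fun m => exL (fun u => eqH (m ++ [1, 4, c]) (flW (WI.map ([·])) u ++ ([1, 4, c] ++ m))) U2) M)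
  (inW ([1, 4] :: M) (I.map ([·])) U3))))))))

theorem SC.sb (h : SC g) (sq : g c * g c = 1) (K : cj (pr γ g c) (𝕎 g M) ≤ 𝔾 g CI) {WI I : List ℕ}
    {U1 U2 U3 : List (List ℕ)} (d : sbB c bs WI I M U1 U2 U3 = true) :
    SB g [1, 4, c] (WI.map ([·])) (c :: I) := by
  simp only [sbB, an_iff] at d
  obtain ⟨d1, d2, d3, d4, d5, d6, d7, d8, d9⟩ := d
  set W := WI.map ([·])
  have l1 : ∀ J : List ℕ, (∀ i ∈ J, i ∈ WI ++ I) → 𝕎 g (J.map ([·])) ≤ 𝔾 g CI := fun J hJ => CW_le.2 fun w hw => by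
    obtain ⟨i, hi, rfl⟩ := List.mem_map.1 hw
    exact ev_gen (allL_iff.1 d2 i (hJ i hi))
  have lW : 𝕎 g W ≤ 𝔾 g CI := l1 WI fun _ => List.mem_append_left _
  have lM : 𝕎 g M ≤ 𝔾 g CI := CW_gen d1
  have sC : 𝔼 g [1, 4] ∈ 𝔾 g CI := ev_gen (by decide +kernel)
  have nc : 𝔼 g [c] ∈ 𝐍(𝕎 g W) := nrm h.fn lW (fun w hw => by
    simpa using K (conj_mem_cj.2 (le_of_inW h.fn lM lW d3 (mem_CW hw)))) (allL_iff.1 d4 _ (.head _))
  have ns := nrm' h.fn lW sC (allL_iff.1 d4 _ (.tail _ (.head _)))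
  have ey : 𝔼 g [1, 4, c] = 𝔼 g [1, 4] * 𝔼 g [c] := ev_append _ [1, 4] [c]
  have ny : 𝔼 g [1, 4, c] ∈ 𝐍(𝕎 g W) := ey ▸ mul_mem ns nc
  have cen : ∀ δ, (∀ w ∈ [1, 4, c] :: W, δ * ev g w = ev g w * δ) → δ = 1 := fun δ hd => by
    obtain ⟨w, i, rfl, c1⟩ := h.cen d5 fun w hw => hd w (.tail _ hw)
    obtain ⟨c1, c2⟩ := an_iff.1 c1
    have wW : 𝔼 g w ∈ 𝕎 g W := (gen_CW WI).le (ev_gen c1)
    exact funG h.fn (lW wW) (one_mem _) (imp_iff.1 c2
      (co_cm h.co (lW (conj_mem_of_mem_normalizer ny wW)) (lW wW) (hd _ (.head _)).symm))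
  have e3 : 𝔼 g [1, 4, c] ^ 3 = (1, ev g [1, 4, c] ^ 3) :=
    Prod.ext (by rw [Prod.pow_fst, E_fst, ← ev_pw]; exact eqH_iff.1 d6) (by rw [Prod.pow_snd, E_snd])
  have y3 : 𝔼 g [1, 4, c] ^ 3 = 1 := e3.trans (Prod.ext rfl (cen _ (List.forall_mem_cons.2
    ⟨((Commute.refl _).pow_left 3).eq, cent_CW (h.fn.mono lW) (e3 ▸ pow_mem ny 3)⟩)))
  have fn : Fun (𝕎 g ([1, 4, c] :: W)) := CW_cons (pr γ g) _ W ▸ fun_cyc (h.fn.mono lW) ny y3 fun s hs e => by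
    have := cm_iff.2 (show ev γ [8] * ev γ [1, 4, c] = ev γ [1, 4, c] * ev γ [8] by
      simpa only [ev_cons _ 8, ev_nil, mul_one, e, E_fst] using cz0 (fst_mem (lW hs)))
    rw [this] at d7; cases d7
  have lS : 𝕎 g W ≤ 𝕎 g ([1, 4, c] :: W) := CW_le.2 fun _ hw => mem_CW (.tail _ hw)
  have yS : 𝔼 g [1, 4, c] ∈ 𝕎 g ([1, 4, c] :: W) := mem_CW (.head _)
  have nS : ∀ a ∈ 𝐍(𝕎 g W), a * 𝔼 g [1, 4, c] * a⁻¹ ∈ 𝕎 g ([1, 4, c] :: W) → a ∈ 𝐍(𝕎 g ([1, 4, c] :: W)) :=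
    fun a ha e => norm_CW (List.forall_mem_cons.2 ⟨e, fun w hw => lS (conj_mem_of_mem_normalizer ha (mem_CW hw))⟩)
  have si : (𝔼 g [1, 4])⁻¹ = 𝔼 g [1, 4] := inv_eq_of_mul_eq_one_right
    ((ev_append _ _ _).symm.trans (eqE h.fn (v := []) (by decide +kernel)))
  have ci : (𝔼 g [c])⁻¹ = 𝔼 g [c] := inv_eq_of_mul_eq_one_right (Prod.ext (by simp [γ_sq]) (by simp [sq]))
  refine ⟨fn, cen, (gen_le _).2 (List.forall_mem_cons.2 ⟨?_, (gen_le _).1 ?_⟩)⟩
  · have := nS _ nc (by convert inv_mem yS using 1; rw [ey, mul_inv_rev, si, ← mul_assoc, mul_inv_cancel_right, ci])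
    simpa using this
  rw [gen_CW]
  refine (le_of_inW h.fn (CW_le.2 (List.forall_mem_cons.2 ⟨sC, CW_le.1 lM⟩)) (l1 I fun _ => List.mem_append_right _)
    d9).trans (CW_le.2 (List.forall_mem_cons.2 ⟨nS _ ns ?_, fun m hm => nS _ (nrm' h.fn lW (lM (mem_CW hm))
      (allL_iff.1 d4 _ (.tail _ (.tail _ hm)))) ?_⟩))
  · convert inv_mem yS using 1
    rw [ey, mul_inv_rev, ci, ← mul_assoc, inv_eq_iff_mul_eq_one.1 si, one_mul]
  obtain ⟨u, -, e⟩ := exL_iff.1 (allL_iff.1 d8 m hm)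
  have m1 := lM (mem_CW hm)
  have m2 := mul_mem (mul_mem (mul_mem m1 sC) (K (conj_mem_cj.2 (inv_mem (mem_CW hm))))) (inv_mem sC)
  have := h.fn.eq m2 (lW (fl_mem u)) (by
    have := eqH_iff.1 e
    simp only [ev_append, ev_cons, ev_nil, mul_one, ← mul_assoc] at this
    simp only [Prod.fst_mul, Prod.fst_inv, E_fst, ev_cons, ev_nil, mul_one, ← mul_assoc, this]
    group)
  convert mul_mem (lS (fl_mem u)) yS using 1
  rw [← this, ey, ev_cons _ c, ev_nil, mul_one]; group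

end CA.He
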