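import Cfsg.Agent.Lib.He.B0

/-!
The two subgroups `2^6 : 3 . S6`.
-/

set_option autoImplicit false

namespace CA.He
open Subgroup CA CA.Fi CA.Ex2 CA.CoT CA.TC Cfsg Cfsg.Spor

variable {G : Type*} [Group G] {g : ℕ → G} [Finite G]

theorem SC.sb2 (h : SC g) (p1 : SP g 6 Ag1) (p2 : SP g 7 Ag2) :
    SB g [1, 4, 6] (W1.map ([·])) (6 :: I1) ∧ SB g [1, 4, 7] (W2.map ([·])) (7 :: I2) :=
  have k1 := h.ku p1 c_dl1 c_ku1
  have k2 := h.ku p2 c_dl2 c_ku2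
  ⟨h.sb p1.sq (h.kt p1 c_dl1 c_kt1 k1 (h.fus k2 c_f1) (h.fus k1 c_f2)) c_sb1,
    h.sb p2.sq (h.kt p2 c_dl2 c_kt2 k2 (h.fus k1 c_f3) (h.fus k2 c_f4)) c_sb2⟩

theorem SC.comm_or (h : SC g) (n1 : Fun (𝔾 g (6 :: I1))) (n2 : Fun (𝔾 g (7 :: I2))) :
    ev g [1, 4, 7] * ev g [1, 4, 6] = ev g [1, 4, 6] * ev g [1, 4, 7] ∨
    ev g [1, 4, 7] * ev g [1, 4, 6] = ev g v0 * ev g [1, 4, 6] * ev g [1, 4, 7] := by
  obtain ⟨j1, j2, j3, j4⟩ := c_J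
  obtain ⟨s0, s1, s2, s3, s4, -⟩ := c_σ
  have lJ : 𝕎 g (JI.map ([·])) ≤ 𝔾 g CI := CW_gen (by decide +kernel)
  have a3 := nrmI n1 j3
  have a4 := nrmI n2 j4
  have := mul_mem (mul_mem (mul_mem a4 a3) (inv_mem a4)) (inv_mem a3)
  rw [show 𝔼 g [1, 4, 7] * 𝔼 g [1, 4, 6] * (𝔼 g [1, 4, 7])⁻¹ * (𝔼 g [1, 4, 6])⁻¹ =
    (1, ev g [1, 4, 7] * ev g [1, 4, 6] * (ev g [1, 4, 7])⁻¹ * (ev g [1, 4, 6])⁻¹) from Prod.ext
      (by simp only [Prod.fst_mul, Prod.fst_inv, E_fst, cm_iff.1 s0]; group)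
      (by simp only [Prod.snd_mul, Prod.snd_inv, E_snd])] at this
  obtain ⟨w, -, e, c⟩ := h.cen c_v (cent_CW (h.fn.mono lJ) this)
  simp only [an_iff, imp_iff, orB_iff] at c
  have wJ : 𝔼 g w ∈ 𝕎 g (JI.map ([·])) := (gen_CW JI).le (ev_gen c.1)
  have ww := eqG h.fn c.2.1
  have e1 := eqG n1 s1
  have e2 := eqG n2 s2
  have e3 := eqG n2 s3
  have e4 := eqG n1 s4
  have c := c.2.2 (co_cm h.co (lJ (conj_mem_of_mem_normalizer (nrmI n1 j1) wJ)) (lJ wJ) ?_)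
    (co_cm h.co (lJ (conj_mem_of_mem_normalizer (nrmI n2 j2) wJ)) (lJ wJ) ?_)
  · refine c.imp (fun c => ?_) fun c => ?_ <;> rw [eqG h.fn c] at e
    · exact commutatorElement_eq_one_iff_mul_comm.1 e
    · rw [← e]; group
  all_goals
    simp only [ev_append] at ww e1 e2 e3 e4 ⊢
    nth_rw 2 [← inv_eq_of_mul_eq_one_right ww]
    rw [← e]
    generalize ev g [1, 4, 6] = a at *
    generalize ev g [1, 4, 7] = b at *
  · have e5 : ev g σ1 * a⁻¹ = a * ev g σ1 := by rw [mul_inv_eq_iff_eq_mul, e1]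
    have e6 : ev g σ1 * a = a⁻¹ * ev g σ1 := by rw [eq_inv_mul_iff_mul_eq, ← mul_assoc, e1]
    have e7 : ev g σ1 * b⁻¹ = b⁻¹ * ev g σ1 := (show Commute _ _ from e2).inv_right.eq
    calc a * ev g σ1 * (b * a * b⁻¹ * a⁻¹) = a * (ev g σ1 * b) * a * b⁻¹ * a⁻¹ := by group
      _ = a * b * (ev g σ1 * a) * b⁻¹ * a⁻¹ := by rw [e2]; group
      _ = a * b * a⁻¹ * (ev g σ1 * b⁻¹) * a⁻¹ := by rw [e6]; group
      _ = a * b * a⁻¹ * b⁻¹ * (ev g σ1 * a⁻¹) := by rw [e7]; group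
      _ = _ := by rw [e5]; group
  · have e5 : ev g σ2 * b⁻¹ = b * ev g σ2 := by rw [mul_inv_eq_iff_eq_mul, e3]
    have e6 : ev g σ2 * b = b⁻¹ * ev g σ2 := by rw [eq_inv_mul_iff_mul_eq, ← mul_assoc, e3]
    have e7 : ev g σ2 * a⁻¹ = a⁻¹ * ev g σ2 := (show Commute _ _ from e4).inv_right.eq
    calc b * ev g σ2 * (b * a * b⁻¹ * a⁻¹) = b * (ev g σ2 * b) * a * b⁻¹ * a⁻¹ := by group
      _ = (ev g σ2 * a) * b⁻¹ * a⁻¹ := by rw [e6]; group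
      _ = a * (ev g σ2 * b⁻¹) * a⁻¹ := by rw [e4]; group
      _ = a * b * (ev g σ2 * a⁻¹) := by rw [e5]; group
      _ = _ := by rw [e7]; group

theorem SB.gam {y y' I I' : List ℕ} {W U : List (List ℕ)} {c : ℕ} (b : SB g y W I) (n : Fun (𝔾 g I'))
    (e : 𝔼 g y' * 𝔼 g y = 𝔼 g y * 𝔼 g y') (d : an (allL (inL I') W) (an (inL I' y') (nrmB W y' U)) = true)
    (d' : an (inL I [1, 4]) (eqI I' [c] ([1, 4] ++ y')) = true) : Fun (𝔾 g (c :: I)) := by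
  refine fun_ext b.fn b.cen ((gen_le _).2 (List.forall_mem_cons.2 ⟨?_, (gen_le _).1 b.le⟩))
  rw [show pr γ g c = _ by simpa only [ev_cons _ c, ev_nil, mul_one] using eqE n (an_iff.1 d').2, ev_append]
  refine mul_mem (b.le (ev_gen (an_iff.1 d').1)) (norm_CW (List.forall_mem_cons.2 ⟨?_, fun w hw => ?_⟩))
  · rw [e, mul_inv_cancel_right]; exact mem_CW (.head _)
  · exact CW_le.2 (fun _ hw => mem_CW (.tail _ hw)) (conj_mem_of_mem_normalizer (nrmI n d) (mem_CW hw))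

/-- the amalgam is that of the model -/
structure SG (g : ℕ → G) : Prop extends SC g where
  f1 : Fun (𝔾 g (7 :: 6 :: I1))
  f2 : Fun (𝔾 g (6 :: 7 :: I2))

theorem SC.sg (h : SC g) (p1 : SP g 6 Ag1) (p2 : SP g 7 Ag2)
    (e : ev g [1, 4, 7] * ev g [1, 4, 6] = ev g [1, 4, 6] * ev g [1, 4, 7]) : SG g := by
  obtain ⟨b1, b2⟩ := h.sb2 p1 p2
  have e' : 𝔼 g [1, 4, 7] * 𝔼 g [1, 4, 6] = 𝔼 g [1, 4, 6] * 𝔼 g [1, 4, 7] :=
    Prod.ext (by simpa only [Prod.fst_mul, E_fst] using cm_iff.1 c_σ.1) (by simpa only [Prod.snd_mul, E_snd])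
  exact ⟨h, b1.gam b2.fnN e' c_g1 (by decide +kernel), b2.gam b1.fnN e'.symm c_g2 (by decide +kernel)⟩

/-- the new letters -/
def up (g : ℕ → G) (a b : G) (i : ℕ) : G := if i = 6 then a else if i = 7 then b else g i

omit [Group G] [Finite G] in
theorem up_C (a b : G) : ∀ i ∈ CI, up g a b i = g i := fun i hi =>
  (if_neg (by revert i; decide)).trans (if_neg (by revert i; decide))

theorem HT.exSG (h : HT g) : ∃ g' : ℕ → G, SG g' := by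
  obtain ⟨g, h⟩ := h.exSC
  obtain ⟨a, a1, a2⟩ := h.exc (.head _) c_pr1 c_exc1
  obtain ⟨b, b1, b2⟩ := h.exc (.tail _ (.head _)) c_pr2 c_exc2
  have eW : ∀ b {A}, allL (inL CI) A = true → 𝕎 (up g a b) A = 𝕎 g A := fun b A i =>
    CW_congr i fun i hi => Prod.ext rfl (up_C a b i hi)
  have p1 : ∀ b, SP (up g a b) 6 Ag1 := fun b => ⟨a1, eW b (A := Ag1) (by decide +kernel) ▸ a2⟩
  have p2 : SP (up g a b) 7 Ag2 := ⟨b1, eW b (A := Ag2) (by decide +kernel) ▸ b2⟩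
  have h1 := h.congr (up_C a b)
  obtain ⟨n1, n2⟩ := h1.sb2 (p1 b) p2
  rcases h1.comm_or n1.fnN n2.fnN with e | e
  · exact ⟨_, h1.sg (p1 b) p2 e⟩
  have z := h.zN (A := Ag2) (by decide +kernel)
  refine ⟨_, (h.congr (up_C a (g 8 * b * g 8))).sg (p1 _) ⟨?_, eW _ (A := Ag2) (by decide +kernel) ▸ ?_⟩ ?_⟩
  · change g 8 * b * g 8 * (g 8 * b * g 8) = 1
    simp only [mul_assoc, ← mul_assoc (g 8) (g 8), h.es.zz, one_mul, ← mul_assoc b b, b1]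
  · simpa [pr, up] using mul_mem (mul_mem z b2) z
  obtain ⟨-, -, -, -, -, s5, s6⟩ := c_σ
  have e5 := eqG n2.fnN s5
  have e6 := eqG n1.fnN s6
  rw [show ev (up g a (g 8 * b * g 8)) [1, 4, 7] = ev (up g a b) ([1, 4] ++ [8, 7, 8]) by simp [up, mul_assoc], e5,
    show ev (up g a (g 8 * b * g 8)) [1, 4, 6] = ev (up g a b) [1, 4, 6] from rfl]
  simp only [ev_append] at e6 ⊢
  rw [mul_assoc, e, ← mul_assoc, ← mul_assoc, e6, mul_assoc]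

end CA.He
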