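import Cfsg.Agent.Lib.He.C0
import Cfsg.Agent.Lib.CoT.A5L

/-!
The homomorphism from the Held group.
-/

set_option autoImplicit false

namespace CA.He
open Subgroup CA CA.Fi CA.Ex2 CA.CoT CA.TC Cfsg Cfsg.Spor

variable {G : Type*} [Group G] {g : ℕ → G} [Finite G]

namespace SG
variable (h : SG g)
include h

theorem braid : ev g (pw (NW.getD 3 [] ++ NW.getD 4 []) 3) = 1 := by
  obtain ⟨r1, r2, r3, r4⟩ := c_RW
  obtain ⟨a1, a2, a3, a4, a5, a6, a7, a8⟩ := c_A5
  have q : ∀ {u v}, eqI G1 u v = true → ev g u = ev g v := eqG h.f1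
  have lJ : 𝕎 g (JI.map ([·])) ≤ 𝔾 g CI := CW_gen (by decide +kernel)
  let X : Subgroup G := 𝐂[ev g [6, 7]] ⊓ 𝐂[ev g [0, 5]] ⊓ 𝐂[ev g [8, 0, 12]]
  have mX : ∀ {a}, a ∈ X ↔ ∀ w ∈ [[6, 7], [0, 5], [8, 0, 12]], a * ev g w = ev g w * a := by
    simp only [X, mem_inf, mem_cent1_iff, List.forall_mem_cons, and_assoc, List.not_mem_nil, false_imp_iff,
      implies_true, and_true, implies_true]
  have K : ∀ a ∈ X, Commute a (ev g tp) → I4 (ev g tp) (ev g xp) a := fun a ha c => by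
    obtain ⟨w, -, rfl, c1⟩ := h.cen c_X (a := a) (List.forall_mem_cons.2 ⟨by
      rw [q a7, ev_append]; exact (c.mul_right (mX.1 ha _ (.tail _ (.head _)))).eq,
      fun w hw => mX.1 ha w (.tail _ hw)⟩)
    obtain ⟨c1, c2⟩ := an_iff.1 c1
    have wJ : 𝔼 g w ∈ 𝕎 g (JI.map ([·])) := (gen_CW JI).le (ev_gen c1)
    obtain ⟨u, hu, c⟩ := exL_iff.1 (imp_iff.1 c2 (co_cm h.co (lJ (conj_mem_of_mem_normalizer (nrmI h.f1 r3) wJ))
      (lJ wJ) (mX.1 ha _ (.head _)).symm))
    rw [eqG h.fn c]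
    simp only [List.mem_cons, List.not_mem_nil, or_false] at hu
    rcases hu with rfl | rfl | rfl | rfl <;> simp [I4]
  have zX : ev g tp ∈ X := mX.2 fun w hw => by simpa using (q (a1 w hw).1).symm
  have A : A5S X (ev g tp) (ev g xp) (ev g hW) := ⟨zX, mX.2 fun w hw => by simpa using (q (a1 w hw).2).symm,
    by simpa using q a2, fun e => by
      have := coE (u := tp) (v := []) h.co (ev_gen (by decide +kernel)) (one_mem _) e
      exact absurd (a3 ▸ this) Bool.false_ne_true,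
    by simpa [mul_assoc] using q a4, mul_inv_eq_iff_eq_mul.2 (by simpa using q a5), mul_inv_eq_iff_eq_mul.2 (by simpa [mul_assoc] using q a6),
    fun a ha c => K _ (mul_mem (mul_mem ha zX) (inv_mem ha)) c,
    fun a ha c => ⟨a, 1, K a ha c, by simp, by simp, by simp, by simp, by simp⟩⟩
  have n := pow_mem (mul_mem (nrmI h.f1 r1) (nrmI h.f2 r2)) 3
  rw [← ev_append, ← ev_pw, E_eq, eqH_iff.1 r4] at n
  have c := cent_CW (h.f1.mono (CW_gen (an_iff.1 r1).1)) n
  set δ := ev g (pw (NW.getD 3 [] ++ NW.getD 4 []) 3)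
  have c1 : Commute δ (ev g [1, 4]) := c _ (by decide)
  have c6 : Commute δ (ev g [6]) := c _ (by decide)
  have c7 : Commute δ (ev g [7]) := c _ (by decide)
  have ch : Commute δ (ev g hW) := by
    simpa [hW, mul_assoc] using (c1.mul_right c6).mul_right (c1.mul_right c7)
  have dX : δ ∈ X := mX.2 (List.forall_mem_cons.2 ⟨by simpa using (c6.mul_right c7).eq,
    fun w hw => c w ((by decide : ∀ w ∈ [[0, 5], [8, 0, 12]], w ∈ RW) w hw)⟩)
  obtain ⟨m, a, hm, aX, ac, e⟩ := A.nf (A.I1 dX ch)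
  have cm : Commute m (ev g hW) := by rcases hm with rfl | rfl | rfl <;> simp
  obtain rfl : a = 1 := A.Vy (K a aX ac) (by
    rw [← inv_mul_eq_iff_eq_mul.2 e]; exact cm.inv_left.mul_left ch)
  rw [mul_one] at e
  have s : Commute (ev g hW) (ev g [1, 4]) → False := fun c => A.y1 (by
    have := q a8
    rw [ev_append, ev_append, c.eq, mul_assoc, mul_eq_left] at this
    simpa [this] using A.y3)
  rcases hm with rfl | rfl | rfl
  exacts [e, (s (e ▸ c1)).elim, (s (Commute.inv_left_iff.1 (e ▸ c1))).elim]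

theorem nv {w u : List ℕ} (c : nvB w u = true) : 𝔼 g (flW NW w) = 𝔼 g u := by
  simp only [nvB, an_iff] at c
  have key : ∀ w ∈ (List.range 7).map (fun i => [i, i]) ++ nvh_rels, ev (fun i => 𝔼 g (NW.getD i [])) w = 1 :=
    fun w hw => by
      rw [ev_flatMap]
      rcases orB_iff.1 (allL_iff.1 c_nv.1 w hw) with c | c
      · exact eqE h.f1 c
      rcases orB_iff.1 c with c | c
      · exact eqE h.f2 c
      · rw [of_decide_eq_true c]; exact E_eq.trans (Prod.ext (eqH_iff.1 c_RW.2.2.2) h.braid)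
  refine funE h.f1 ?_ (ev_gen c.2.1) c.2.2
  rw [flW, ← ev_flatMap]
  refine nvh_mem (fun i => ?_) rfl (fun w hw => key w (List.mem_append_right _ hw)) (fun w hw => ?_) c.1
  · rcases lt_or_ge i 7 with l | l
    · simpa using key [i, i] (List.mem_append_left _ (List.mem_map_of_mem (List.mem_range.2 l)))
    · rw [List.getD_eq_default _ _ l]; simp
  · rw [ev_flatMap]; exact ev_gen (allL_iff.1 c_nv.2 w hw)

theorem mv {I I' k k' m n b b' bs : List ℕ} {D D' U U' : List (List ℕ)} (f : Fun (𝔾 g I)) (f' : Fun (𝔾 g I'))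
    (c : mvB I I' k k' m n b b' bs D D' U U' = true) : Commute (ev g b) (ev g m) := by
  rw [mvB, an_iff, an_iff (a := an _ _)] at c
  obtain ⟨c1, c2, c⟩ := c
  simp only [an_iff] at c
  obtain ⟨c3, c4, c5, c6, c7, c8, c9, c10, c11⟩ := c
  have e6 := inv_eq_of_mul_eq_one_left ((ev_append _ _ _).symm.trans (eqE h.fn c6))
  have kC : 𝔼 g k' ∈ 𝔾 g CI := ev_gen (w := k') (inL_iff.2 fun i hi =>
    inL_iff.1 (an_iff.1 c6).1 i (List.mem_append_left _ hi))
  have n1 := nrm h.fn (CW_gen c4) (fun w hw => by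
    obtain ⟨d, hd, e⟩ := exL_iff.1 (allL_iff.1 c5 w hw)
    have e := eqE h.fn e
    rw [ev_append, ev_append] at e
    convert mul_mem (mul_mem kC (CW_gen c3 (conj_mem_of_mem_normalizer (nrmI f c1) (mem_CW hd)))) (inv_mem kC) using 1
    rw [← mul_inv_eq_iff_eq_mul.2 e, ev_append, ev_append, ← e6]; group) c7
  have n2 := mul_mem n1 (inv_mem (nrmI f' c2))
  rw [E_eq, E_eq, eqH_iff.1 c8, Prod.inv_mk, Prod.mk_mul_mk, mul_inv_cancel] at n2
  obtain ⟨w, -, e, c⟩ := h.cen c9 (cent_CW (h.fn.mono (CW_gen c4)) n2)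
  have e1 : Commute (ev g b') (ev g w) := by simpa [commute_iff_eq] using eqG h.fn c
  have e2 : Commute (ev g b') (ev g n) := by simpa [commute_iff_eq] using eqG f' c10
  have e3 := (e1.mul_right e2).conj (ev g k)
  have e4 := congrArg Prod.snd e6
  rw [Prod.snd_inv, E_snd, E_snd] at e4
  rw [← e, inv_mul_cancel_right, show ev g k * ev g b' = _ by simpa using eqG h.fn c11, ev_append, ev_append,
    ← e4] at e3
  simpa [mul_assoc] using e3

theorem eN {j : ℕ} (hj : j ∈ [0, 2, 3, 4, 5, 6]) : 𝔼 g (flW NW (NH.getD j [])) = 𝔼 g (HW.getD j []) := by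
  rcases (by decide : ∀ j ∈ [0, 2, 3, 4, 5, 6], j = 3 ∨ j ∈ [0, 2, 4, 5, 6]) j hj with rfl | hj
  exacts [rfl, h.nv (c_NH.1 j hj)]
omit h [Finite G] in
theorem evN (r : List ℕ) : 𝔼 g (flW NW (flW NH r)) = ev (fun j => 𝔼 g (flW NW (NH.getD j []))) r := by
  simp only [flW, ← ev_flatMap]

theorem fam : Fam (fun j => ev g (HW.getD j [])) 7 (coxR gsHe He.edges ++ XHe) := by
  have key : ∀ r ∈ (List.range 7).map (fun i => [i, i]) ++ (coxR gsHe He.edges ++ XHe),
      r = [1, 3, 1, 3] ∨ r = [3, 1, 3, 1] ∨ ev (fun j => ev g (HW.getD j [])) r = 1 := fun r hr => by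
    rcases orB_iff.1 (allL_iff.1 c_rel r hr) with c | c
    · exact .inr (.inr ((ev_flatMap _ _ _).trans (eqG h.fn c)))
    rcases orB_iff.1 c with c | c
    · have := h.nv (an_iff.1 c).2
      rw [evN, ev_congr fun j hj => h.eN (inL_iff.1 (an_iff.1 c).1 j hj), ev_flatMap] at this
      exact .inr (.inr ((ev_flatMap _ _ _).trans (E_snd.symm.trans (congrArg Prod.snd this))))
    · exact (of_decide_eq_true c).imp_right .inl
  have sq : ∀ i, ev g (HW.getD i []) * ev g (HW.getD i []) = 1 := fun i => by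
    rcases lt_or_ge i 7 with l | l
    · simpa using key [i, i] (List.mem_append_left _ (List.mem_map_of_mem (List.mem_range.2 l)))
    · rw [List.getD_eq_default _ _ l]; simp
  have m1 := h.mv h.f2 h.f1 c_mv1
  have c : Commute (ev g (HW.getD 1 [])) (ev g (HW.getD 3 [])) := by
    have := m1.mul_right ((h.mv h.f1 h.f2 c_mv2).mul_right m1)
    rwa [← ev_append, ← ev_append] at this
  refine ⟨sq, rfl, fun r hr => ?_⟩
  rcases key r (List.mem_append_right _ hr) with rfl | rfl | e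
  · simp only [ev_cons, ev_nil, mul_one]; rw [← mul_assoc, c.symm.mul_mul_mul_comm, sq, sq, mul_one]
  · simp only [ev_cons, ev_nil, mul_one]; rw [← mul_assoc, c.mul_mul_mul_comm, sq, sq, mul_one]
  · exact e

theorem hom : ∃ φ : He →* G, ∀ i ∈ CI, φ (γ i) = g i := by
  obtain ⟨φ, hφ⟩ := hom_He h.fam
  let F := ((MonoidHom.id He).prod φ).range
  have m0 : ∀ j < 7, 𝔼 g (HW.getD j []) ∈ F := fun j hj => ⟨gH j, by
    rw [E_eq, eqH_iff.1 (c_NH.2.2.2 j hj), ev_cons, ev_nil, mul_one, γ_gH hj]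
    refine Prod.ext rfl ?_
    interval_cases j
    exacts [hφ .a, hφ .b, hφ .c, hφ .d, hφ .e, hφ .f, hφ .g]⟩
  have m1 : ∀ j, 𝔼 g (flW NW (NH.getD j [])) ∈ F := fun j => by
    rcases lt_or_ge j 7 with l | l
    · rcases (by decide : ∀ j < 7, j = 1 ∨ j ∈ [0, 2, 3, 4, 5, 6]) j l with rfl | hj
      · rw [h.nv c_NH.2.1, ← eqE h.fn c_NH.2.2.1, ev_pw, ev_append]
        exact pow_mem (mul_mem (m0 0 (by simp)) (m0 1 (by simp))) 2
      · exact h.eN hj ▸ m0 j l
    · rw [List.getD_eq_default _ _ l]; exact one_mem _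
  have l : 𝔾 g CI ≤ F := (gen_CW CI).le.trans ((le_of_inW h.fn (CW_gen (by decide +kernel)) (gen_CW CI).ge c_CH).trans
    (CW_le.2 (List.forall_mem_cons.2 ⟨m0 1 (by simp), fun w hw => by
      obtain ⟨u, -, c⟩ := exL_iff.1 (allL_iff.1 c_JH w hw)
      rw [← h.nv c, evN]; exact ev_mem fun j _ => m1 j⟩)))
  refine ⟨φ, fun i hi => ?_⟩
  obtain ⟨x, e⟩ := l (mem_gen _ hi)
  rw [← show x = γ i from congrArg Prod.fst e]; exact congrArg Prod.snd e
end SG

theorem HT.hom (h : HT g) : ∃ φ : He →* G, 𝐂[φ (γ 8)] ≤ φ.range ∧ Nat.card ↥𝐂[φ (γ 8)] = 21504 ∧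
    (∀ x ∈ KS γ [0, 1, 2, 3, 4, 5, 8, 9, 10, 11, 12, 13, 14], φ x = 1 → x = 1) ∧ ¬ IsConj (φ (γ 8)) (φ (γ 15)) := by
  obtain ⟨g, h⟩ := h.exSG
  obtain ⟨φ, e⟩ := h.hom
  have e8 := e 8 (by decide)
  refine ⟨φ, e8 ▸ h.top ▸ (gen_le _).2 fun i hi => ⟨_, e i hi⟩, e8 ▸ h.card, fun x hx e1 => ?_, fun c => ?_⟩
  · obtain ⟨b, hb⟩ := exists_snd (g := g) (I := CI) hx
    have : 𝔾 g CI ≤ ((MonoidHom.id He).prod φ).range := (gen_le _).2 fun i hi => ⟨γ i, Prod.ext rfl (e i hi)⟩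
    obtain ⟨y, hy⟩ := this hb
    obtain rfl : y = x := congrArg Prod.fst hy
    exact h.co y (by rwa [← show φ y = b from congrArg Prod.snd hy, e1] at hb)
  · have e15 : γ 15 = γ 0 * γ 5 := by simpa [HW] using (eqH_iff.1 (c_NH.2.2.2 0 (by simp))).symm
    rw [e8, e15, map_mul, e 0 (by decide), e 5 (by decide)] at c
    have := (h.zt 33 (by simp)).1 (by
      simpa [show nfL 33 [] = [0, 5] by decide +kernel] using c.trans (isConj_iff.2 ⟨1, by
        simpa [show nfL 33 [] = [0, 5] by decide +kernel] using ev_nfL (f := g) 33 []⟩))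
    revert this; decide +kernel

end CA.He
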