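import Cfsg.Agent.Lib.He.E1

/-!
The two classes of involutions of the Held group and the centralizer of a `2A`-involution.
-/

set_option autoImplicit false
set_option maxRecDepth 100000

namespace CA.He
open Cfsg Cfsg.Spor CA.Fi CA.TC CA.Ex2 Equiv Subgroup

/-- the centralizer of `z` -/
abbrev C0 : Subgroup He := KS γ [0, 1, 2, 3, 4, 5, 8, 9, 10, 11, 12, 13, 14]
/-- the centralizer of `t` -/
def H0 : Subgroup He := KW HWE
/-- the second class of conjugates of `z` in `H0` -/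
def e1 : He := γ 0 * γ 12
/-- the centralizer of the four-group `V` -/
def CV : Subgroup He := KS γ [0, 2, 3, 5, 8, 10, 11, 12, 15, 17, 18, 19, 20, 21]

theorem ev1 (i : ℕ) : ev γ [i] = γ i := by simp
theorem ev_e1 : ev γ [0, 12] = e1 := by simp [e1]

theorem c_fA : allN (fun p => cond' (an (Nat.beq (MH.ap [2, 18] p) p) (an (Nat.beq (MH.ap [8, 0, 12] p) p)
    (!(Nat.beq (MH.ap [15] p) p)))) (oH (Nat.beq p 645) (Nat.beq p 881)) true) 2058 = true := by decide +kernel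
theorem c_fB : allN (fun p => cond' (an (Nat.beq (MH.ap [2, 18] p) p) (an (Nat.beq (MH.ap [15] p) p)
    (!(Nat.beq (MH.ap [8, 0, 12] p) p)))) (oH (Nat.beq p 743) (Nat.beq p 744)) true) 2058 = true := by decide +kernel

theorem KS_cent {gm x : List ℕ} (h : cmH (gm.map fun i => [i]) x = true) : KS γ gm ≤ 𝐂[ev γ x] :=
  KS_le fun i hi => cmH_spec h _ (List.mem_map.2 ⟨i, hi, rfl⟩)
theorem KW_cent {W : List (List ℕ)} {x : List ℕ} (h : cmH W x = true) : KW W ≤ 𝐂[ev γ x] := KW_le (cmH_spec h)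
theorem KW_KS {W : List (List ℕ)} {gm : List ℕ} (h : ∀ w ∈ W, ∀ i ∈ w, i ∈ gm) : KW W ≤ KS γ gm :=
  KW_le fun w hw => mem_KS (h w hw)
theorem KW_mono {W W' : List (List ℕ)} (h : ∀ w ∈ W, w ∈ W') : KW W ≤ KW W' := KW_le fun w hw => mem_KW (h w hw)

theorem card_dbl {G : Type*} [Group G] [Finite G] {A B : Subgroup G} (h : A ≤ B) {x : G} (hB : x ∈ B) (hA : x ∉ A) :
    2 * Nat.card A ≤ Nat.card B := by
  have h1 := card_mul_relIndex h
  have h2 : A.relIndex B ≠ 1 := fun e => hA (relIndex_eq_one.1 e hB)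
  have h3 : A.relIndex B ≠ 0 := fun e => by rw [e] at h1; exact Nat.card_pos.ne h1
  rw [← h1, mul_comm]; exact Nat.mul_le_mul_left _ (by omega)

theorem sylow_of_card {G : Type*} [Group G] [Finite G] {P M : Subgroup G} {p k m : ℕ} (hp : p.Prime) (h : P ≤ M)
    (hP : Nat.card P = p ^ k) (hM : Nat.card M = p ^ k * m) (hm : ¬ p ∣ m) : SylowIn p P M := by
  have := Fact.mk hp
  refine sylowIn_mk hp h (IsPGroup.of_card hP) ?_
  have := card_mul_relIndex h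
  rw [hP, hM] at this
  rwa [Nat.eq_of_mul_eq_mul_left (pow_pos hp.pos k) this]

theorem C0_le : C0 ≤ 𝐂[γ 8] := ev1 8 ▸ KS_cent (by decide +kernel)
theorem card_C0 : 21504 ≤ Nat.card C0 :=
  (show 21504 = PM.bound L0 by decide +kernel) ▸ card_ge c_L0 fun w hw => mem_KS (by revert w; decide +kernel)
theorem H0_le : H0 ≤ 𝐂[γ 15] := ev1 15 ▸ KW_cent (by decide +kernel)
theorem t_H0 : γ 15 ∈ H0 := ev1 15 ▸ mem_KW (by decide)
theorem W2E_H0 : ∀ w ∈ W2E, ev γ w ∈ H0 := fun w hw => by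
  obtain ⟨i, hi, rfl⟩ := List.getElem_of_mem hw
  rw [← nthL_get [] _ hi, eqH_iff.1 (allN_iff.1 c_HM i hi)]
  exact flE_mem (fun _ h => mem_KW h) _
theorem zt : IsConj (γ 15) (γ 8 * γ 15) := by
  simpa using cjH_conj (c := [9, 11, 10, 0, 9, 13, 14]) (x := [8, 15]) (r := [15]) (by decide +kernel)
theorem et : IsConj (γ 8) (e1 * γ 15) := by
  simpa [e1, mul_assoc] using cjH_conj (c := [6, 7, 4, 13, 1, 13]) (x := [0, 12, 15]) (r := [8]) (by decide +kernel)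
theorem ke : cjH [6, 7, 4, 13, 2, 13] [0, 12] [8] = true := by decide +kernel
theorem kt : cjH [6, 7, 4, 13, 2, 13] [15] [0, 8, 12] = true := by decide +kernel
theorem ze : IsConj (γ 8) e1 := ev1 8 ▸ ev_e1 ▸ cjH_conj ke

theorem ev_gH {w : List ℕ} (h : ∀ i ∈ w, i < 7) : ev gH w = ev γ (w.map (· + 15)) := by
  rw [← ev_map γ (· + 15)]; exact ev_congr fun i hi => (γ_gH (h i hi)).symm

theorem card_H0_le : Nat.card H0 ≤ 161280 := by
  have h := famHe
  have h5 : ev gH (pw [2, 3, 4] 5) = 1 := by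
    rw [ev_gH (by decide)]; exact (eqH_iff (v := [])).1 (by decide +kernel)
  have h1 := (h.add (R' := [pw [2, 3, 4] 5]) (by simpa using h5)).add' (h.word [0, 1, 2, 4] [] hec_mem
    (by decide +kernel) [pw [0, 0, 1, 0, 1] 2, pw [0, 1, 0, 1, 2] 4, pw [0, 1, 0, 1, 3] 2,
      [0, 1, 0, 1, 2, 0, 1, 0, 1, 2, 0, 3]] (by decide +kernel))
  have h2 := ((h1.add' (h.word [0, 1, 3] [] hed_mem (by decide +kernel) [pw [0, 1, 0, 1, 2] 2]
    (by decide +kernel))).add' (h.word [0, 1, 5] [] hed_mem (by decide +kernel) [pw [0, 1, 0, 1, 2] 2]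
    (by decide +kernel))).add' (h.word [0, 1, 6] [] hed_mem (by decide +kernel) [pw [0, 1, 0, 1, 2] 2]
    (by decide +kernel))
  have h3 := h2.subst [[0], [0, 1, 0, 1], [2], [3], [4], [5], [6]] hee_rels (by decide +kernel)
  have h4 := h3.step (List.range 7) [0, 1, 3, 4, 5, 6] hee_card (by decide +kernel) <|
    h3.step [0, 1, 3, 4, 5, 6] [0, 1, 4, 5, 6] hef_card (by decide +kernel) <|
    h3.step [0, 1, 4, 5, 6] [] heg_card (by decide +kernel) <| KS_nil _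
  refine (card_le_of_le (KW_le fun w hw => ?_)).trans h4.2
  obtain ⟨i, hi, h7, rfl⟩ : ∃ i ∈ List.range 7, (∀ j ∈ [[0], [0, 1, 0, 1], [2], [3], [4], [5], [6]].getD i [], j < 7) ∧
      ([[0], [0, 1, 0, 1], [2], [3], [4], [5], [6]].getD i []).map (· + 15) = w := by
    revert w; decide +kernel
  exact subset_closure ⟨i, hi, ev_gH h7⟩

theorem pc_T1 : pcOK T1W TC.tail = true := (pcOK_cons c_pc).2.2
theorem pc_J : pcOK JW TC.tail.tail = true := (pcOK_cons pc_T1).2.2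
theorem J_CV : KW JW ≤ CV := KW_KS (by decide)
theorem CV_v : CV ≤ 𝐂[ev γ [8, 0, 12]] := KS_cent (by decide +kernel)
theorem CV_H0 : CV ≤ H0 := KS_le fun i hi => W2E_H0 _ (by revert i; decide)
theorem s_v : ev γ [1, 4] ∉ 𝐂[ev γ [8, 0, 12]] := not_cm (by decide +kernel)
theorem T1_H0 : KW T1W ≤ H0 := KW_le fun w hw => W2E_H0 _ (by revert w; decide)
theorem card_J : Nat.card (KW JW) = 256 := le_antisymm (pc_card pc_J)
  ((show 256 = PM.bound LJ by decide +kernel) ▸ card_ge c_LJ fun w hw => mem_KW (by revert w; decide +kernel))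
theorem card_T1 : Nat.card (KW T1W) = 512 := le_antisymm (pc_card pc_T1) (by
  have := card_dbl (KW_mono (W := JW) (W' := T1W) (by decide)) (mem_KW (w := [1, 4]) (by decide))
    fun h => s_v (CV_v (J_CV h))
  rwa [card_J] at this)
theorem card_T : Nat.card (KW TW) = 1024 := le_antisymm (pc_card c_pc) (by
  have := card_dbl (KW_mono (W := T1W) (W' := TW) (by decide)) (mem_KW (w := [1]) (by decide))
    fun h => not_cm (x := [15]) (by decide +kernel) (ev1 15 ▸ H0_le (T1_H0 h))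
  rwa [card_T1] at this)
theorem b_LC : 80640 = PM.bound (LC1 ++ LC2) := by decide +kernel
theorem LC_mem : ∀ w ∈ PM.gens (LC1 ++ LC2), ev γ w ∈ CV := fun w hw => mem_KS (by revert w; decide +kernel)
theorem card_H0 : Nat.card CV = 80640 ∧ Nat.card H0 = 161280 ∧ H0 ⊓ 𝐂[ev γ [8, 0, 12]] = CV := by
  have h1 := b_LC ▸ card_ge c_LC LC_mem
  have h2 := card_dbl (inf_le_left : H0 ⊓ 𝐂[ev γ [8, 0, 12]] ≤ H0) (W2E_H0 [1, 4] (by decide)) fun h => s_v h.2
  have h3 := card_H0_le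
  have h4 := card_le_of_le (le_inf CV_H0 CV_v)
  exact ⟨by omega, by omega, (eq_of_le_of_card_ge (le_inf CV_H0 CV_v) (by omega)).symm⟩

theorem pcW_zero (ws : List (List ℕ)) : ev γ (pcW ws 0) = 1 := by
  induction ws with
  | nil => rfl
  | cons w ws ih => rw [pcW_cons]; exact ih

theorem piElt_inv {i : He} (h : i * i = 1) : PiElt {2} i :=
  (piElt_singleton_iff' Nat.prime_two).2 ⟨1, by rw [pow_one, pow_two, h]⟩

theorem two {i : He} (h : orderOf i = 2) : IsConj (γ 8) i ∨ IsConj (γ 15) i := by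
  have ii : i * i = 1 := by rw [← pow_two, ← h, pow_orderOf_eq_one]
  obtain ⟨g, -, hg⟩ := (sylow_of_card (k := 10) (m := 3935925) Nat.prime_two le_top card_T
    (by rw [card_top, card_He]; rfl) (by norm_num)).exists_conj_mem (mem_top i) (piElt_inv ii)
  obtain ⟨a, ha, e⟩ := pc_spec c_pc hg
  have c : IsConj (ev γ (pcW TW a)) i := (isConj_iff.2 ⟨g, e.symm⟩).symm
  rcases oH_iff.1 (cond'_imp (allN_iff.1 c_T a ha) (eqH_iff.2 (by rw [ev_append, e, conj_mul, ii]; simp))) with h1 | h1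
  · rw [beq_iff.1 h1, pcW_zero, isConj_one_right] at c
    rw [c, orderOf_one] at h; cases h
  · obtain ⟨x, -, h2⟩ := anyH_iff.1 h1
    exact (oH_iff.1 (an_iff.1 h2).2).imp (fun h => ev1 8 ▸ (cjH_conj h).trans c) fun h => ev1 15 ▸ (cjH_conj h).trans c

theorem z_ne : γ 8 ≠ 1 := fun e => by
  have := eqH_iff.2 ((ev1 8).trans e : ev γ [8] = ev γ [])
  revert this; decide +kernel

theorem clsH (hz : ¬ IsConj (γ 8) (γ 15)) {d : He} (hd : d ∈ H0) (h : IsConj (γ 8) d) :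
    ∃ h ∈ H0, h * d * h⁻¹ = γ 8 ∨ h * d * h⁻¹ = e1 := by
  have dd : d * d = 1 := by obtain ⟨g, rfl⟩ := isConj_iff.1 h; rw [conj_mul, γ_sq]; simp
  obtain ⟨g, hg, hm⟩ := (sylow_of_card (k := 9) (m := 315) Nat.prime_two T1_H0 card_T1
    (by rw [card_H0.2.1]; rfl) (by norm_num)).exists_conj_mem hd (piElt_inv dd)
  obtain ⟨a, ha, e⟩ := pc_spec pc_T1 hm
  have c : IsConj (γ 8) (ev γ (pcW T1W a)) := h.trans (isConj_iff.2 ⟨g, e.symm⟩)
  rcases oH_iff.1 (cond'_imp (allN_iff.1 c_T1 a ha) (eqH_iff.2 (by rw [ev_append, e, conj_mul, dd]; simp))) with h1 | h1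
  · rw [beq_iff.1 h1, pcW_zero, isConj_one_left] at c
    exact absurd c z_ne
  · obtain ⟨x, -, h2⟩ := anyH_iff.1 h1
    rcases oH_iff.1 (an_iff.1 h2).2 with h3 | h3
    · exact absurd (c.trans (ev1 15 ▸ cjH_conj h3).symm) hz
    · refine ⟨_, mul_mem (flE_mem W2E_H0 x.2) hg, ?_⟩
      have : ev γ (flW W2E x.2) * g * d * (ev γ (flW W2E x.2) * g)⁻¹ =
        ev γ (flW W2E x.2) * ev γ (pcW T1W a) * (ev γ (flW W2E x.2))⁻¹ := by rw [e]; group
      rw [this]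
      exact (oH_iff.1 h3).imp (fun h => ev1 8 ▸ cjH_iff.1 h) fun h => ev_e1 ▸ cjH_iff.1 h

section
variable (hc : Nat.card 𝐂[γ 8] ≤ 21504)
include hc

theorem cz_eq : 𝐂[γ 8] = C0 := (eq_of_le_of_card_ge C0_le (hc.trans card_C0)).symm

theorem cz' : 𝐂[γ 8] ⊓ 𝐂[γ 15] = KW T1W := by
  have h1 := cls_ge (K := 𝐂[γ 8]) (fun u hu => C0_le (mem_KS (by revert u; decide))) c_U1 (by decide +kernel)
  rw [ev1, show U1.length = 42 from rfl] at h1
  refine (eq_of_le_of_card_ge (le_inf ((KW_KS (by decide)).trans C0_le) (T1_H0.trans H0_le)) ?_).symm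
  rw [card_T1]; omega

theorem ce' : 𝐂[e1] ⊓ 𝐂[γ 15] = KW JW := by
  have h1 := cls_ge (K := 𝐂[γ 8]) (fun u hu => C0_le (mem_KS (by revert u; decide))) c_U2 (by decide +kernel)
  rw [show U2.length = 84 from rfl] at h1
  refine (eq_of_le_of_card_ge (le_inf (ev_e1 ▸ KW_cent (by decide +kernel)) ((J_CV.trans CV_H0).trans H0_le)) ?_).symm
  have h2 : CA.cj (ev γ [6, 7, 4, 13, 2, 13]) (𝐂[e1] ⊓ 𝐂[γ 15]) ≤ 𝐂[γ 8] ⊓ 𝐂[ev γ [0, 8, 12]] := fun x hx => by
    obtain ⟨y, hy, rfl⟩ := mem_cj'.1 hx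
    rw [← ev1 8, ← cjH_iff.1 ke, ← cjH_iff.1 kt, ev_e1, ev1]
    exact ⟨mem_cent1_iff.2 (by rw [conj_mul, conj_mul, mem_cent1_iff.1 hy.1]),
      mem_cent1_iff.2 (by rw [conj_mul, conj_mul, mem_cent1_iff.1 hy.2])⟩
  have h3 := card_le_of_le h2
  rw [card_cj] at h3
  rw [card_J]; omega

theorem cz : 𝐂[γ 8] ⊓ 𝐂[γ 15] ≤ H0 := cz' hc ▸ T1_H0
theorem ce : 𝐂[e1] ⊓ 𝐂[γ 15] ≤ H0 := ce' hc ▸ J_CV.trans CV_H0

theorem cnt (hz : ¬ IsConj (γ 8) (γ 15)) : 945 ≤ {d | d ∈ H0 ∧ IsConj (γ 8) d}.ncard := by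
  have k : ∀ x : He, ∀ n, Nat.card ↥(𝐂[x] ⊓ 𝐂[γ 15]) = n → 161280 ≤ n * {y | ∃ h ∈ H0, h * x * h⁻¹ = y}.ncard :=
    fun x n h => by
      rw [← card_H0.2.1, ← card_inf_mul_relIndex 𝐂[x] H0, relIndex_cent1_eq_ncard, ← h]
      exact Nat.mul_le_mul_right _ (card_le_of_le (inf_le_inf_left _ H0_le))
  have k1 := k _ _ (by rw [cz' hc, card_T1])
  have k2 := k _ _ (by rw [ce' hc, card_J])
  have zH : γ 8 ∈ H0 := ev1 8 ▸ W2E_H0 _ (by decide)
  have eH : e1 ∈ H0 := mul_mem (ev1 0 ▸ W2E_H0 _ (by decide)) (ev1 12 ▸ W2E_H0 _ (by decide))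
  refine le_trans ?_ (Set.ncard_le_ncard (s := {y | ∃ h ∈ H0, h * γ 8 * h⁻¹ = y} ∪ {y | ∃ h ∈ H0, h * e1 * h⁻¹ = y}) ?_
    (Set.toFinite _))
  · rw [Set.ncard_union_eq (Set.disjoint_left.2 ?_)]
    · omega
    rintro _ ⟨a, ha, rfl⟩ ⟨b, hb, e⟩
    have ca := mem_cent1_iff.1 (H0_le ha)
    have cb := mem_cent1_iff.1 (H0_le hb)
    refine hz (et.trans ((isConj_iff.2 ⟨a⁻¹ * b, ?_⟩).trans zt.symm))
    calc _ = a⁻¹ * (b * e1 * b⁻¹ * (b * γ 15 * b⁻¹)) * a := by group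
      _ = γ 8 * (a⁻¹ * (γ 15 * a)) := by rw [e, cb]; group
      _ = _ := by rw [← ca]; group
  · rintro _ (⟨a, ha, rfl⟩ | ⟨a, ha, rfl⟩)
    · exact ⟨mul_mem (mul_mem ha zH) (inv_mem ha), isConj_iff.2 ⟨a, rfl⟩⟩
    · exact ⟨mul_mem (mul_mem ha eH) (inv_mem ha), ze.trans (isConj_iff.2 ⟨a, rfl⟩)⟩

end

theorem fix3 {y : Perm ℕ} (h3 : y ^ 3 = 1) {P : ℕ → Prop} {a b : ℕ} (hP : ∀ p, P p → P (y p))
    (h : ∀ p, P p → p = a ∨ p = b) (ha : P a) : y a = a := by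
  by_contra hn
  have e1 := (h _ (hP a ha)).resolve_left hn
  have e2 : y (y a) = a := (h _ (hP _ (hP a ha))).resolve_right fun e => hn (y.injective (e.trans e1.symm))
  have := congrArg (fun s : Perm ℕ => s a) h3
  simp only [pow_succ, pow_zero, one_mul, Perm.mul_apply, Perm.one_apply, e2] at this
  exact hn this

theorem u5_ord : orderOf (ev γ [2, 18]) = 5 := by
  have := Fact.mk Nat.prime_five
  refine orderOf_eq_prime (by rw [← ev_pw]; exact (eqH_iff (v := [])).1 (by decide +kernel)) fun e => ?_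
  have := (eqH_iff (v := [])).2 e
  revert this; decide +kernel

theorem no15 {y : He} (hy : y ∈ CV) (o : orderOf y = 3) (hn : y ∈ 𝐍(zpowers (ev γ [2, 18]))) : False := by
  have cm : ∀ {x : He} {p : ℕ}, y ∈ 𝐂[x] → (ρ x (ρ y p) = ρ y p ↔ ρ x p = p) := fun {x p} h => by
    rw [← Perm.mul_apply, ← map_mul, ← mem_cent1_iff.1 h, map_mul, Perm.mul_apply, (ρ y).injective.eq_iff]
  have cu : ∀ p, ρ (ev γ [2, 18]) p = p → ρ (ev γ [2, 18]) (ρ y p) = ρ y p := fun p h => by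
    obtain ⟨n, hn⟩ := mem_zpowers_iff.1 ((mem_normalizer_iff.1 (inv_mem hn) _).1 (mem_zpowers _))
    have : ρ (y⁻¹ * ev γ [2, 18] * y⁻¹⁻¹) p = p := by
      rw [← hn, map_zpow]; exact Perm.zpow_apply_eq_self_of_apply_eq_self h n
    rwa [inv_inv, map_mul, map_mul, map_inv, Perm.mul_apply, Perm.mul_apply, Perm.inv_eq_iff_eq] at this
  have ct : y ∈ 𝐂[ev γ [15]] := ev1 15 ▸ H0_le (CV_H0 hy)
  have cv := CV_v hy
  have y3 : ρ y ^ 3 = 1 := by rw [← map_pow, ← o, pow_orderOf_eq_one, map_one]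
  have gen : ∀ (s r : List ℕ) (a b : ℕ), y ∈ 𝐂[ev γ s] → y ∈ 𝐂[ev γ r] → allN (fun p => cond' (an (Nat.beq (MH.ap [2, 18] p) p)
      (an (Nat.beq (MH.ap s p) p) (!(Nat.beq (MH.ap r p) p)))) (oH (Nat.beq p a) (Nat.beq p b)) true) 2058 = true →
      MH.ap [2, 18] a = a ∧ MH.ap s a = a ∧ MH.ap r a ≠ a → ρ y a = a := fun s r a b hs hr c h0 => by
    refine fix3 y3 (P := fun p => ρ (ev γ [2, 18]) p = p ∧ ρ (ev γ s) p = p ∧ ρ (ev γ r) p ≠ p) (b := b)
      (fun p h => ⟨cu p h.1, (cm hs).2 h.2.1, fun e => h.2.2 ((cm hr).1 e)⟩) (fun p h => ?_) (by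
        simpa only [ne_eq, md.fix_iff] using h0)
    simp only [ne_eq, md.fix_iff] at h
    have hp : p < 2058 := not_le.1 fun e => h.2.2 (MH.ap_ge r e)
    simpa only [oH_iff, beq_iff] using cond'_imp (allN_iff.1 c p hp) (by
      rw [an_iff, an_iff, beq_iff, beq_iff, Bool.not_eq_true', ← Bool.not_eq_true, beq_iff]; exact h)
  have h1 := card_fx c_LC LC_mem (by rw [card_H0.1, ← b_LC])
  rw [show PM.bound LC2 = 10 by decide +kernel, show LC1.map (·.1) = [645, 743] from rfl] at h1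
  have m1 : y ∈ CV ⊓ (Fx [645, 743]).comap ρ := ⟨hy, fun p hp => by
    rcases List.mem_cons.1 hp with rfl | hp
    · exact gen _ _ _ _ cv ct c_fA (by decide +kernel)
    · rw [List.mem_singleton.1 hp]; exact gen _ _ _ _ ct cv c_fB (by decide +kernel)⟩
  have m2 : ev γ [2, 18] ∈ CV ⊓ (Fx [645, 743]).comap ρ := ⟨mem_KS (by decide), fun p hp =>
    md.fix_iff.2 (by revert p; decide +kernel)⟩
  have d1 := o ▸ orderOf_dvd_natCard _ m1
  have d2 := u5_ord ▸ orderOf_dvd_natCard _ m2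
  have := Nat.card_pos (α := ↥(CV ⊓ (Fx [645, 743]).comap ρ))
  omega

theorem small {Y : Subgroup He} (hY : Y ≤ H0) (ht : γ 15 ∈ Y) (h : ∀ y ∈ Y, ¬ IsConj (γ 8) y) : Nat.card Y < 945 := by
  by_contra hn
  set v := ev γ [8, 0, 12]
  have tC : γ 15 ∈ CV := ev1 15 ▸ mem_KS (by decide)
  have h1 := card_inf_mul_relIndex CV Y
  have h2 := card_mul_relIndex CV_H0
  rw [card_H0.1, card_H0.2.1] at h2
  have h3 := relIndex_le_of_le_right (H := CV) hY (by omega)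
  set Y0 := CV ⊓ Y
  obtain ⟨P, hP, tP⟩ := exists_sylowIn_ge (M := Y0) (piGrp_zpowers.2 (piElt_inv (γ_sq 15))) (zpowers_le.2 ⟨tC, ht⟩)
  obtain ⟨g, hg, hJ⟩ := (sylow_of_card (k := 8) (m := 315) Nat.prime_two J_CV card_J
    (by rw [card_H0.1]; rfl) (by norm_num)).exists_cj_le hP.piGrp (hP.le.trans inf_le_left)
  have gt : g * γ 15 * g⁻¹ = γ 15 := mul_inv_eq_iff_eq_mul.2 (mem_cent1_iff.1 (H0_le (CV_H0 hg)))
  have gv : g * v * g⁻¹ = v := mul_inv_eq_iff_eq_mul.2 (mem_cent1_iff.1 (CV_v hg))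
  have hV : ∀ x ∈ P, x ∈ [1, γ 15, v, γ 15 * v] := fun x hx => by
    obtain ⟨a, ha, e⟩ := pc_spec pc_J (hJ (mem_cj'.2 ⟨x, hx, rfl⟩))
    have xY := (hP.le hx).2
    rcases oH_iff.1 (allN_iff.1 c_JE a ha) with c | c
    · obtain ⟨⟨_, k, w⟩, -, c⟩ := anyH_iff.1 c
      have c1 := ev1 8 ▸ cjH_conj (an_iff.1 c).2
      have : ∃ y ∈ Y, ev γ (tst (pcW JW a) k) = g * y * g⁻¹ := by
        rcases nthL_mem [] [pcW JW a, pcW JW a ++ [15], pcW JW a ++ pcW JW a, pcW JW a ++ pcW JW a ++ [15]] k with e1 | e1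
        · exact ⟨1, one_mem _, by rw [tst, e1]; simp⟩
        · rw [← tst] at e1
          simp only [List.mem_cons, List.not_mem_nil, or_false] at e1
          rcases e1 with e1 | e1 | e1 | e1 <;> rw [e1]
          · exact ⟨x, xY, e⟩
          · exact ⟨_, mul_mem xY ht, by rw [ev_append, e, ev1, ← conj_mul, gt]⟩
          · exact ⟨_, mul_mem xY xY, by rw [ev_append, e, ← conj_mul]⟩
          · exact ⟨_, mul_mem (mul_mem xY xY) ht, by rw [ev_append, ev_append, e, ev1, ← conj_mul, ← conj_mul, gt]⟩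
      obtain ⟨y, hy, e1⟩ := this
      exact absurd (c1.trans (isConj_iff.2 ⟨g, e1.symm⟩).symm) (h y hy)
    · obtain ⟨w, hw, c⟩ := anyH_iff.1 c
      rw [eqH_iff, e] at c
      have inj : ∀ y, g * x * g⁻¹ = g * y * g⁻¹ → x = y := fun y e => by simpa using e
      simp only [List.mem_cons, List.not_mem_nil, or_false] at hw ⊢
      rcases hw with rfl | rfl | rfl | rfl
      · exact Or.inl (inj _ (by simpa using c))
      · exact Or.inr (Or.inl (inj _ (by rw [c, gt, ev1])))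
      · exact Or.inr (Or.inr (Or.inl (inj _ (by rw [c, gv]))))
      · exact Or.inr (Or.inr (Or.inr (inj _ (by rw [c, ← conj_mul, gt, gv, ev_cons]))))
  have c4 : Nat.card P ≤ 4 := by
    classical
    have := Set.ncard_le_ncard (s := (P : Set He)) (t := ([1, γ 15, v, γ 15 * v].toFinset : Set He))
      (fun x hx => by simpa using hV x hx) (Set.toFinite _)
    rw [Set.ncard_coe_finset] at this
    exact this.trans (List.toFinset_card_le _)
  have cP : ∀ x ∈ P, CV ≤ 𝐂[x] := fun x hx y hy => by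
    have a := mem_cent1_comm.1 (H0_le (CV_H0 hy))
    have b := mem_cent1_comm.1 (CV_v hy)
    have := hV x hx
    simp only [List.mem_cons, List.not_mem_nil, or_false] at this
    refine mem_cent1_comm.1 ?_
    rcases this with rfl | rfl | rfl | rfl
    exacts [one_mem _, a, b, mul_mem a b]
  have h4 := card_mul_relIndex hP.le
  have h5 := hP.not_dvd Nat.prime_two
  have h6 : P.relIndex Y0 ∣ 315 := by
    refine Nat.Coprime.dvd_of_dvd_mul_left (m := 2 ^ 8) (Nat.Coprime.pow_right _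
      ((Nat.Prime.coprime_iff_not_dvd Nat.prime_two).2 h5).symm) ?_
    have := card_dvd_of_le (inf_le_left : Y0 ≤ CV)
    rw [card_H0.1, ← h4] at this
    exact (Dvd.intro_left _ rfl).trans this
  have h7 : P.relIndex Y0 = 315 := by
    obtain ⟨c, hc⟩ := h6
    have : Nat.card Y ≤ 4 * P.relIndex Y0 * 2 := by
      rw [← h1, ← h4]; exact Nat.mul_le_mul (Nat.mul_le_mul_right _ c4) (by omega)
    rcases c with _ | _ | _ | c <;> [omega; omega; omega; nlinarith]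
  obtain ⟨u, hu, ou⟩ := exists_orderOf_eq_prime Nat.prime_five (A := Y0) (by rw [← h4, h7]; omega)
  have hp := Nat.card_pos (α := P)
  have hR : SylowIn 5 (zpowers u) Y0 := sylow_of_card (k := 1) (m := Nat.card P * 63) Nat.prime_five (zpowers_le.2 hu)
    (by rw [Nat.card_zpowers, ou]; rfl) (by rw [← h4, h7]; ring) (by omega)
  have h8 : 𝐍(zpowers u).relIndex Y0 ≡ 1 [MOD 5] := by
    have := Fact.mk Nat.prime_five
    obtain ⟨S, hS⟩ := hR.exists_sylow'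
    have := card_sylow_modEq_one 5 Y0
    rwa [S.card_eq_index_normalizer, ← S.coe_coe, hS, ← subgroupOf_normalizer_eq hR.le] at this
  have h9 : 𝐍(zpowers u).relIndex Y0 ∣ 315 := h7 ▸ relIndex_dvd_of_le_left _ fun x hx =>
    centralizer_le_normalizer _ (cent_zpowers u ▸ mem_cent1_comm.1 (cP x hx hu.1))
  have h10 := card_inf_mul_relIndex 𝐍(zpowers u) Y0
  obtain ⟨y, hy, oy⟩ := exists_orderOf_eq_prime Nat.prime_three (A := 𝐍(zpowers u) ⊓ Y0) (by
    have : ∀ n ∈ Nat.divisors 315, n % 5 = 1 → n = 1 ∨ n = 21 := by decide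
    rcases this _ (Nat.mem_divisors.2 ⟨h9, by norm_num⟩) h8 with e | e <;> rw [e, ← h4, h7] at h10 <;> omega)
  obtain ⟨k, hk, e⟩ := CoT.exists_conj_zpowers (M := CV) (s := 16128) Nat.prime_five card_H0.1 (by norm_num) hu.1
    (mem_KS (by decide)) ou u5_ord
  have e2 : CA.cj k (zpowers u) = zpowers (ev γ [2, 18]) := eq_of_le_of_card_ge
    (by rw [cj_zpowers]; exact zpowers_le.2 e) (by rw [card_cj, Nat.card_zpowers, Nat.card_zpowers, ou, u5_ord])
  refine no15 (y := k * y * k⁻¹) (mul_mem (mul_mem hk hy.2.1) (inv_mem hk))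
    (by rw [← MulAut.conj_apply, MulEquiv.orderOf_eq, oy]) ?_
  rw [← e2, ← cj_normalizer]; exact mem_cj'.2 ⟨y, hy.1, rfl⟩

end CA.He
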