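import Cfsg.Agent.Lib.He.E2
import Cfsg.Agent.Lib.CoT.Grp
import Mathlib.Combinatorics.Pigeonhole

/-!
A homomorphism from the Held group that is onto the centralizer of the central involution is bijective.
-/

set_option autoImplicit false

namespace CA.He
open Subgroup CA CA.Fi CA.CoT CA.TC Cfsg Cfsg.Spor

theorem c_E3 : eqH (pw u17 17) [] = true ∧ PM.bound [l2, l3, l4] = 1958400 ∧ MH.ap u17 0 = 0 ∧
    ∀ p ∈ LH.map (·.1), ∃ w ∈ bW, MH.ap w 0 = p := by decide +kernel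

theorem index_stab : ((MulAction.stabilizer (Equiv.Perm ℕ) 0).comap ρ).index = 2058 := by
  have e : MulAction.stabilizer (Equiv.Perm ℕ) 0 = Fx [0] := by ext; simp [Fx]
  have : Finite ρ.range := Finite.of_surjective _ ρ.rangeRestrict_surjective
  obtain ⟨a1, a2, a3⟩ := PM.tight_step c_inv (K := ρ.range) (fun w _ => ⟨_, md.ρ_ev w⟩) c_L
    ((Nat.card_le_card_of_surjective _ ρ.rangeRestrict_surjective).trans (card_He.trans b_L).le)
  have : Finite ↥(ρ.range ⊓ Fx [l1.1]) := Finite.Set.subset (ρ.range : Set (Equiv.Perm ℕ)) inf_le_left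
  have a4 := a3.antisymm (PM.chain_spec c_inv _ _ a1 a2)
  have a5 := ((Fx [0]).comap ρ).index_mul_card
  rw [← Subgroup.card_map_of_injective md.inj, Subgroup.map_comap_eq, card_He] at a5
  rw [c_E3.2.1] at a4
  rw [show Nat.card ↥(ρ.range ⊓ Fx [0]) = 1958400 from a4] at a5
  rw [e]; exact Nat.eq_of_mul_eq_mul_right (by norm_num : 0 < 1958400) (a5.trans (by norm_num))

theorem normal_bot {K : Subgroup He} [hK : K.Normal] (h : Nat.card K ∣ 187425) : K = ⊥ := by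
  classical
  set S := (MulAction.stabilizer (Equiv.Perm ℕ) 0).comap ρ
  have d1 : S.relIndex K ∣ 2058 := index_stab ▸ relIndex_sup_of_norm' (A := S) (B := K) le_normalizer_of_normal ▸
    relIndex_dvd_index_of_le le_sup_left
  have d2 : S.relIndex K ∣ 187425 := (relIndex_dvd_card S K).trans h
  let O := MulAction.orbit (K.map ρ) (0 : ℕ)
  have cO : S.relIndex K = Nat.card O := by
    rw [relIndex_comap]; exact MulAction.index_stabilizer (K.map ρ) (0 : ℕ)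
  have fO : Finite O := Nat.finite_of_card_ne_zero (by rw [← cO]; exact index_ne_zero_of_finite)
  have := Fintype.ofFinite O
  have u0 : ρ (ev γ u17) 0 = 0 := md.fix_iff.2 c_E3.2.2.1
  have mO : ∀ p ∈ O, ρ (ev γ u17) p ∈ O := by
    rintro _ ⟨⟨_, k, hk, rfl⟩, rfl⟩
    refine ⟨⟨_, _, hK.conj_mem k hk (ev γ u17), rfl⟩, ?_⟩
    change ρ _ 0 = ρ _ (ρ k 0)
    rw [map_mul, map_mul, map_inv, Equiv.Perm.mul_apply, Equiv.Perm.mul_apply, Equiv.Perm.inv_eq_iff_eq.2 u0.symm]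
  let f : Function.End O := fun p => ⟨_, mO p.1 p.2⟩
  have pf : ∀ n p, ((f ^ n) p).1 = ρ (ev γ u17 ^ n) p := fun n => by
    induction n with
    | zero => intro p; rw [pow_zero, pow_zero, map_one]; rfl
    | succ n ih => intro p; rw [pow_succ, pow_succ, map_mul, Equiv.Perm.mul_apply]; exact ih (f p)
  haveI : Fact (Nat.Prime 17) := ⟨by norm_num⟩
  have m := Equiv.Perm.card_fixedPoints_modEq (f := f) (p := 17) (n := 1) (funext fun p => Subtype.ext (by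
    rw [pf, pow_one, ← ev_pw, eqH_iff.1 c_E3.1, ev_nil, map_one]; rfl))
  have m1 : Fintype.card f.fixedPoints = 1 := Fintype.card_eq_one_iff.2 ⟨⟨⟨0, MulAction.mem_orbit_self _⟩, Subtype.ext u0⟩, by
    rintro ⟨⟨_, ⟨_, k, hk, rfl⟩, rfl⟩, e⟩
    have e : MH.ap u17 (ρ k 0) = ρ k 0 := md.fix_iff.1 (congrArg Subtype.val e)
    have := allN_iff.1 c_17 _ ((md.lt_iff c_L b_L k 0).2 (by decide))
    rw [show Nat.beq _ _ = true from beq_iff.2 e] at this
    exact Subtype.ext (Subtype.ext (beq_iff.1 this))⟩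
  rw [m1, Fintype.card_eq_nat_card, ← cO] at m
  have d3 : S.relIndex K ∣ 147 := Nat.dvd_gcd d1 d2
  have : S.relIndex K = 1 := by
    exact (by decide +kernel : ∀ n ≤ 147, n ∣ 147 → n ≡ 1 [MOD 17] → n = 1) _ (Nat.le_of_dvd (by norm_num) d3) d3 m
  have l := relIndex_eq_one.1 this
  refine eq_bot_iff.2 fun k hk => md.base c_L b_L fun p hp => ?_
  obtain ⟨w, -, rfl⟩ := c_E3.2.2.2 p hp
  have : ρ _ 0 = 0 := l (hK.conj_mem k hk (ev γ w))
  rw [md.ap_inv, ← Equiv.Perm.mul_apply, ← map_mul]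
  nth_rw 2 [← this]
  rw [← Equiv.Perm.mul_apply, ← map_mul]; simp [mul_assoc]

variable {G : Type*} [Group G] [Finite G]

theorem pig {X H : Subgroup G} (HX : H ≤ X) {D : Set G} (DH : ∀ d ∈ D, d ∈ H) (sq : ∀ d ∈ D, d * d = 1)
    (fx : ∀ d ∈ D, ∀ x ∈ X, x * d * x⁻¹ ∈ H → x ∈ H) (hn : ¬ X ≤ H) (h0 : 0 < D.ncard) :
    ∃ x ∈ X, x ∉ H ∧ D.ncard ≤ Nat.card ↥(H ⊓ cj x H) := by
  classical
  have := Fintype.ofFinite G
  let T : Finset (G ⧸ H) := Finset.univ.filter fun q => q.out ∈ X ∧ q.out ∉ H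
  have mT : ∀ x ∈ X, x ∉ H → (x : G ⧸ H) ∈ T := fun x hx hH => by
    obtain ⟨k, e⟩ := QuotientGroup.mk_out_eq_mul H x
    simp only [T, Finset.mem_filter, Finset.mem_univ, true_and, e, mul_mem_cancel_right k.2]
    exact ⟨mul_mem hx (HX k.2), hH⟩
  let e : (G ⧸ H) × G → G := fun p => p.1.out * p.2 * p.1.out⁻¹
  have eX : ∀ p ∈ T ×ˢ D.toFinset, e p ∈ X ∧ e p ∉ H ∧ (e p)⁻¹ = e p := fun p hp => by
    obtain ⟨h1, h2⟩ := Finset.mem_product.1 hp
    have h1 := (Finset.mem_filter.1 h1).2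
    have h2 := Set.mem_toFinset.1 h2
    exact ⟨mul_mem (mul_mem h1.1 (HX (DH _ h2))) (inv_mem h1.1), fun c => h1.2 (fx _ h2 _ h1.1 c),
      by simp [e, mul_assoc, inv_eq_of_mul_eq_one_right (sq _ h2)]⟩
  obtain ⟨x, hx, hH⟩ := SetLike.not_le_iff_exists.1 hn
  obtain ⟨q, -, c⟩ := Finset.exists_le_card_fiber_of_mul_le_card_of_maps_to (s := T ×ˢ D.toFinset) (t := T)
    (f := fun p => (e p : G ⧸ H)) (n := D.ncard) (fun p hp => mT _ (eX p hp).1 (eX p hp).2.1) ⟨_, mT x hx hH⟩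
    (by rw [Finset.card_product, Set.ncard_eq_toFinset_card'])
  obtain ⟨p0, hp0⟩ := Finset.card_pos.1 (h0.trans_le c)
  obtain ⟨p1, p2⟩ := Finset.mem_filter.1 hp0
  refine ⟨e p0, (eX _ p1).1, (eX _ p1).2.1, c.trans ?_⟩
  rw [← Nat.card_eq_finsetCard]
  refine Nat.card_le_card_of_injective (fun p => ⟨e p0 * e p.1, ?_⟩) fun p p' h => ?_
  · obtain ⟨h1, h2⟩ := Finset.mem_filter.1 p.2
    have := QuotientGroup.eq.1 (p2.trans h2.symm)
    rw [(eX _ p1).2.2] at this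
    refine ⟨this, mem_cj.2 ?_⟩
    rw [inv_mul_cancel_left]; simpa [(eX _ p1).2.2, (eX _ h1).2.2] using inv_mem this
  · have h : e p.1 = e p'.1 := mul_left_cancel (congrArg Subtype.val h)
    obtain ⟨h1, h2⟩ := Finset.mem_product.1 (Finset.mem_filter.1 p.2).1
    obtain ⟨h3, h4⟩ := Finset.mem_product.1 (Finset.mem_filter.1 p'.2).1
    have := fx _ (Set.mem_toFinset.1 h2) _ (mul_mem (inv_mem (Finset.mem_filter.1 h3).2.1) (Finset.mem_filter.1 h1).2.1)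
      (by convert DH _ (Set.mem_toFinset.1 h4) using 1
          calc _ = p'.1.1.out⁻¹ * e p.1 * p'.1.1.out := by simp [e, mul_assoc]
            _ = _ := by rw [h]; simp [e, mul_assoc])
    have e1 : p'.1.1 = p.1.1 := by simpa using QuotientGroup.eq.2 this
    exact Subtype.ext (Prod.ext e1.symm (by simpa [e, e1] using h))

/-- **the recognition of the image** -/
theorem bij (φ : He →* G) (hC : 𝐂[φ (γ 8)] ≤ φ.range) (hc : Nat.card ↥𝐂[φ (γ 8)] = 21504)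
    (hi : ∀ x ∈ KS γ [0, 1, 2, 3, 4, 5, 8, 9, 10, 11, 12, 13, 14], φ x = 1 → x = 1)
    (hz : ¬ IsConj (φ (γ 8)) (φ (γ 15))) : Function.Bijective φ := by
  have mC : ∀ {a x : He}, x ∈ 𝐂[a] → φ x ∈ 𝐂[φ a] := fun h => by
    rw [mem_cent1_iff, ← map_mul, mem_cent1_iff.1 h, map_mul]
  have mR : ∀ k, φ k ∈ φ.range := fun k => ⟨k, rfl⟩
  have inj : Function.Injective φ := by
    have b : φ.ker ⊓ C0 = ⊥ := eq_bot_iff.2 fun x hx => hi x hx.2 hx.1
    have c1 : Nat.card C0 = 21504 := card_C0.antisymm' (hc ▸ Nat.card_le_card_of_injective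
      (fun x : C0 => (⟨φ x, mC (C0_le x.2)⟩ : 𝐂[φ (γ 8)])) fun x y e => Subtype.ext (inv_mul_eq_one.1
        (hi _ (mul_mem (inv_mem x.2) y.2) (by rw [map_mul, map_inv, show φ x = φ y from congrArg Subtype.val e]; simp))))
    have c2 := CA.card_sup_mul_card_inf (A := φ.ker) (B := C0) (.inl le_normalizer_of_normal)
    have c3 := card_subgroup_dvd_card (φ.ker ⊔ C0)
    rw [b, card_bot, mul_one] at c2
    rw [c2, c1, card_He] at c3
    exact φ.ker_eq_bot_iff.1 (normal_bot (Nat.dvd_of_mul_dvd_mul_right (by norm_num : 0 < 21504) c3))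
  have mC' : ∀ {a x : He}, φ x ∈ 𝐂[φ a] → x ∈ 𝐂[a] := fun h =>
    mem_cent1_iff.2 (inj (by simpa using mem_cent1_iff.1 h))
  have hc0 : Nat.card 𝐂[γ 8] ≤ 21504 := hc ▸ Nat.card_le_card_of_injective
    (fun x : 𝐂[γ 8] => (⟨φ x, mC x.2⟩ : 𝐂[φ (γ 8)])) fun x y e => Subtype.ext (inj (congrArg Subtype.val e))
  have hz0 : ¬ IsConj (γ 8) (γ 15) := fun c => hz (φ.map_isConj c)
  have cR : ∀ {a b : He}, 𝐂[φ a] ≤ φ.range → IsConj a b → 𝐂[φ b] ≤ φ.range := fun {a b} h c y hy => by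
    obtain ⟨k, rfl⟩ := isConj_iff.1 c
    have := h (show (φ k)⁻¹ * y * φ k ∈ 𝐂[φ a] by
      rw [mem_cent1_iff] at hy ⊢
      calc _ = (φ k)⁻¹ * (y * φ (k * a * k⁻¹)) * φ k := by simp [mul_assoc]
        _ = _ := by rw [hy]; simp [mul_assoc])
    rwa [mul_mem_cancel_right (mR k), mul_mem_cancel_left (inv_mem (mR k))] at this
  have o8 : orderOf (φ (γ 8)) = 2 := orderOf_eq_prime (by rw [pow_two, ← map_mul, γ_sq, map_one]) fun e => by
    have := (eqH_iff (u := [8]) (v := [])).2 (inj (by simpa using e))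
    revert this; decide +kernel
  have ty : ∀ {d : He}, IsConj (φ (γ 8)) (φ d) → IsConj (γ 8) d := fun {d} c =>
    (two (by obtain ⟨k, e⟩ := isConj_iff.1 c; rw [← orderOf_injective φ inj, ← e, ← o8]; exact
      orderOf_injective (MulAut.conj k).toMonoidHom (MulEquiv.injective _) _)).resolve_right fun c' => hz (c.trans (φ.map_isConj c').symm)
  have cT : 𝐂[φ (γ 15)] ≤ φ.range := by
    have HX : H0.map φ ≤ 𝐂[φ (γ 15)] := map_le_iff_le_comap.2 fun x hx => mC (H0_le hx)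
    have fx : ∀ d ∈ φ '' {d | d ∈ H0 ∧ IsConj (γ 8) d}, ∀ x ∈ 𝐂[φ (γ 15)], x * d * x⁻¹ ∈ H0.map φ → x ∈ H0.map φ := by
      rintro _ ⟨d, ⟨d1, d2⟩, rfl⟩ x hx ⟨d', d3, e⟩
      obtain ⟨a, a1, a2⟩ := clsH hz0 d1 d2
      obtain ⟨b, b1, b2⟩ := clsH hz0 d3 (ty ((φ.map_isConj d2).trans (isConj_iff.2 ⟨x, e.symm⟩)))
      have y1 : φ b * x * (φ a)⁻¹ ∈ 𝐂[φ (γ 15)] :=
        mul_mem (mul_mem (HX ⟨b, b1, rfl⟩) hx) (inv_mem (HX ⟨a, a1, rfl⟩))
      have y2 : φ b * x * (φ a)⁻¹ * φ (a * d * a⁻¹) * (φ b * x * (φ a)⁻¹)⁻¹ = φ (b * d' * b⁻¹) := by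
        simp [e, mul_assoc]
      rw [← mul_mem_cancel_left (show φ b ∈ H0.map φ from ⟨b, b1, rfl⟩),
        ← mul_mem_cancel_right (inv_mem (show φ a ∈ H0.map φ from ⟨a, a1, rfl⟩))]
      generalize φ b * x * (φ a)⁻¹ = y at y1 y2
      have y3 : IsConj (φ (a * d * a⁻¹ * γ 15)) (φ (b * d' * b⁻¹ * γ 15)) := isConj_iff.2 ⟨y, by
        rw [map_mul _ _ (γ 15), map_mul _ _ (γ 15), ← y2, mul_assoc _ y⁻¹, mem_cent1_iff.1 (inv_mem y1)]; group⟩
      have k : ∀ c, 𝐂[φ c] ≤ φ.range → 𝐂[c] ⊓ 𝐂[γ 15] ≤ H0 → y * φ c * y⁻¹ = φ c → y ∈ H0.map φ := fun c h1 h2 e => by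
        have := mem_cent1_iff.2 (mul_inv_eq_iff_eq_mul.1 e)
        obtain ⟨y, rfl⟩ := h1 this
        exact ⟨y, h2 ⟨mC' this, mC' y1⟩, rfl⟩
      rcases a2 with a2 | a2 <;> rcases b2 with b2 | b2 <;> rw [a2, b2] at y2 y3
      · exact k _ hC (cz hc0) y2
      · exact (hz ((φ.map_isConj et).trans (y3.symm.trans (φ.map_isConj zt).symm))).elim
      · exact (hz ((φ.map_isConj et).trans (y3.trans (φ.map_isConj zt).symm))).elim
      · exact k _ (cR hC ze) (ce hc0) y2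
    by_contra hn
    have n := (cnt hc0 hz0).trans (Set.ncard_image_of_injective _ inj).ge
    obtain ⟨x, x1, x2, c⟩ := pig HX (by rintro _ ⟨d, hd, rfl⟩; exact ⟨d, hd.1, rfl⟩) (by
      rintro _ ⟨d, ⟨-, hd⟩, rfl⟩
      obtain ⟨k, rfl⟩ := isConj_iff.1 hd
      rw [← map_mul, conj_mul, γ_sq]; simp) fx (fun c => hn (c.trans (map_le_range _ _))) (by omega)
    have := small (Y := (H0.map φ ⊓ cj x (H0.map φ)).comap φ) (fun y hy => (mem_map_iff_mem inj).1 hy.1)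
      ⟨⟨_, t_H0, rfl⟩, mem_cj.2 (by
        rw [mem_cent1_iff.1 (inv_mem x1), inv_mul_cancel_right]; exact ⟨_, t_H0, rfl⟩)⟩
      fun y hy c => x2 (inv_mem_iff.1 (fx _ ⟨y, ⟨(mem_map_iff_mem inj).1 hy.1, c⟩, rfl⟩ _ (inv_mem x1)
        (by simpa using mem_cj.1 hy.2)))
    rw [← Subgroup.card_map_of_injective inj, map_comap_eq_self (inf_le_left.trans (map_le_range _ _))] at this
    omega
  refine ⟨inj, fun x => ?_⟩
  have t2 : φ (γ 15) * φ (γ 15) = 1 := by rw [← map_mul, γ_sq, map_one]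
  have z2 : x * φ (γ 8) * x⁻¹ * (x * φ (γ 8) * x⁻¹) = 1 := by rw [conj_mul, ← map_mul, γ_sq]; simp
  rcases dih_cases t2 z2 with ⟨j, -, e, -⟩ | ⟨k, k1, k2, k3, k4⟩
  · exact (hz ((isConj_iff.2 ⟨x, rfl⟩).trans (isConj_iff.2 ⟨_, e⟩).symm)).elim
  generalize (φ (γ 15) * (x * φ (γ 8) * x⁻¹)) ^ k = u at *
  have u2 : u * u = 1 := by
    have : u * φ (γ 15) * (u * φ (γ 15)) = 1 := by
      rcases k4 with c | c <;> obtain ⟨k, e⟩ := isConj_iff.1 c <;> rw [← e, conj_mul]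
      exacts [by simp [t2], by simp only [z2, mul_one, mul_inv_cancel]]
    rwa [k2.symm.mul_mul_mul_comm, t2, mul_one] at this
  obtain ⟨u, rfl⟩ := cT (mem_cent1_iff.2 k2)
  obtain ⟨d, e⟩ := (two (i := u) (orderOf_eq_prime (inj (by simpa [pow_two] using u2)) fun e => k1 (by simp [e]))).elim
    (cR hC) (cR cT) (mem_cent1_iff.2 k3.symm)
  obtain ⟨k, rfl⟩ := isConj_iff.1 (ty (isConj_iff.2 ⟨x, e.symm⟩))
  have := hC (show (φ k)⁻¹ * x ∈ 𝐂[φ (γ 8)] by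
    rw [mem_cent1_iff, ← mul_inv_eq_iff_eq_mul]
    calc _ = (φ k)⁻¹ * (x * φ (γ 8) * x⁻¹) * φ k := by group
      _ = _ := by rw [← e]; simp [mul_assoc])
  rwa [mul_mem_cancel_left (inv_mem (mR k))] at this

end CA.He
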