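import Cfsg.Agent.Lib.CoT.Fn

/-!
The local hypotheses that single out the Held group.
-/

set_option autoImplicit false

namespace CA.He
open Subgroup CA CA.Fi CA.Ex2 CA.CoT Cfsg

/-- the codes of the conjugates of the central involution -/
def ZT : ℕ := 0x505003305370000050500330536
/-- the action of two generators of `L3(2)` on the codes -/
def TA (j i : ℕ) : ℕ := ([[21, 8, 1, 34, 17, 40], [1, 10, 5, 40, 21, 32]].getD j []).getD i 0

/-- the local hypotheses -/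
structure HT {G : Type*} [Group G] (g : ℕ → G) : Prop where
  es : ES 6 0 g
  lq : LQ (gen g (qI 6)) (g 8)
  card : Nat.card ↥𝐂[g 8] = 21504
  zt : ∀ v < 128, IsConj (g 8) (nf 6 g v) ↔ tb ZT v = true
  h3 : ∀ i ∈ [0, 5], ∀ k, k * g 8 * k⁻¹ = g i → ∀ q ∈ gen g (qI 6) ⊓ cj k (gen g (qI 6)),
    IsConj (g 8) q → q = g 8 ∨ q = g i ∨ q = g 8 * g i
  act : ∀ j < 2, ∃ y ∈ 𝐂[g 8], ∀ i < 6,
    y * g i * y⁻¹ = nf 6 g (TA j i) ∨ y * g i * y⁻¹ = nf 6 g (TA j i) * g 8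

end CA.He
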