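import Cfsg.Agent.Lib.He.M
import Cfsg.Agent.Lib.He.HT

/-!
Words in pairs of letters: comparison of a group with the model of the Held group.
-/

set_option autoImplicit false

namespace CA.He
open Subgroup CA CA.Fi CA.Ex2 CA.CoT CA.TC Cfsg Cfsg.Spor

/-- existential quantifier over a list -/
noncomputable def exL {α : Type} (f : α → Bool) (l : List α) : Bool :=
  List.rec false (fun a _ r => Bool.rec r true (f a)) l
theorem exL_iff {α : Type} {f : α → Bool} {l : List α} : exL f l = true ↔ ∃ a ∈ l, f a = true := by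
  induction l with
  | nil => simp [exL]
  | cons a l ih =>
    have : exL f (a :: l) = Bool.rec (exL f l) true (f a) := rfl
    rw [this]; cases h : f a <;> simp [ih, h]
/-- implication -/
noncomputable def imp (a b : Bool) : Bool := Bool.rec true b a
theorem imp_iff {a b : Bool} : imp a b = true ↔ (a = true → b = true) := by cases a <;> simp [imp]
/-- disjunction -/
noncomputable def orB (a b : Bool) : Bool := Bool.rec b true a
theorem orB_iff {a b : Bool} : orB a b = true ↔ a = true ∨ b = true := by cases a <;> simp [orB]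
/-- the letters of the word are in the list -/
noncomputable def inL (I w : List ℕ) : Bool := allL (fun c => CoT.memL c I) w
theorem inL_iff {I w : List ℕ} : inL I w = true ↔ ∀ c ∈ w, c ∈ I := by simp only [inL, allL_iff, CoT.memL_iff]
/-- the words commute in the model -/
noncomputable def cm (u v : List ℕ) : Bool := eqH (u ++ v) (v ++ u)
/-- the ordered products -/
def subs : List (List ℕ) → List (List ℕ)
  | [] => [[]]
  | a :: l => subs l ++ (subs l).map (a ++ ·)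
/-- a letter if a bit is set -/
noncomputable def bc (v i a : ℕ) (r : List ℕ) : List ℕ := cnd (tb v i) (a :: r) r
/-- the word of a code, followed by `l` -/
noncomputable def nfL (v : ℕ) (l : List ℕ) : List ℕ :=
  bc v 0 0 (bc v 1 1 (bc v 2 2 (bc v 3 3 (bc v 4 4 (bc v 5 5 (bc v 6 8 l))))))
/-- the model check that `m` normalizes the group generated by `W` -/
noncomputable def nrmB (W : List (List ℕ)) (m : List ℕ) (U : List (List ℕ)) : Bool :=
  allL (fun w => exL (fun u => eqH (m ++ w) (flW W u ++ m)) U) W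
/-- the model check that the words `W` lie in the group generated by `M` -/
noncomputable def inW (M W U : List (List ℕ)) : Bool := allL (fun w => exL (fun u => eqH w (flW M u)) U) W

section
variable {Γ : Type*} [Group Γ] {f : ℕ → Γ} {H : Subgroup Γ} {W : List (List ℕ)} {I w : List ℕ}

/-- the group generated by words -/
def CW (f : ℕ → Γ) (W : List (List ℕ)) : Subgroup Γ := closure (ev f '' {w | w ∈ W})
theorem CW_le : CW f W ≤ H ↔ ∀ w ∈ W, ev f w ∈ H := by
  rw [CW, closure_le]; exact ⟨fun h w hw => h ⟨w, hw, rfl⟩, by rintro h _ ⟨w, hw, rfl⟩; exact h w hw⟩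
theorem mem_CW (h : w ∈ W) : ev f w ∈ CW f W := subset_closure ⟨w, h, rfl⟩
theorem fl_mem (u : List ℕ) : ev f (flW W u) ∈ CW f W := by
  rw [flW, ← ev_flatMap]
  refine ev_mem fun i _ => ?_
  rcases lt_or_ge i W.length with h | h
  · rw [List.getD_eq_getElem _ _ h]; exact mem_CW (List.getElem_mem h)
  · rw [List.getD_eq_default _ _ h]; exact one_mem _
theorem subs_mem (h : ∀ w ∈ W, ev f w ∈ H) (hw : w ∈ subs W) : ev f w ∈ H := by
  induction W generalizing w with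
  | nil => rw [List.mem_singleton.1 hw]; exact one_mem _
  | cons a l ih =>
    have ih' := fun {w} => ih (w := w) fun w hw => h w (.tail _ hw)
    rcases List.mem_append.1 hw with hw | hw
    · exact ih' hw
    · obtain ⟨u, hu, rfl⟩ := List.mem_map.1 hw
      rw [ev_append]; exact mul_mem (h a (.head _)) (ih' hu)
theorem ev_gen (c : inL I w = true) : ev f w ∈ gen f I := ev_mem fun i hi => mem_gen f (inL_iff.1 c i hi)
theorem CW_gen (c : allL (inL I) W = true) : CW f W ≤ gen f I := CW_le.2 fun w hw => ev_gen (allL_iff.1 c w hw)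
theorem gen_CW (I : List ℕ) : gen f I = CW f (I.map ([·])) :=
  le_antisymm ((gen_le f).2 fun i hi => by simpa using mem_CW (f := f) (List.mem_map_of_mem (f := ([·])) hi))
    (CW_le.2 fun w hw => by obtain ⟨i, hi, rfl⟩ := List.mem_map.1 hw; simpa using mem_gen f hi)
theorem cj_CW {a : Γ} (h : ∀ w ∈ W, a * ev f w * a⁻¹ ∈ H) : cj a (CW f W) ≤ H :=
  cj_le_iff.2 (CW_le.2 fun w hw => mem_cj_inv.2 (h w hw))
theorem norm_CW [Finite Γ] {a : Γ} (h : ∀ w ∈ W, a * ev f w * a⁻¹ ∈ CW f W) : a ∈ 𝐍(CW f W) :=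
  mem_normalizer_of_cj_le (cj_CW h)
theorem CW_congr {f' : ℕ → Γ} (c : allL (inL I) W = true) (h : ∀ i ∈ I, f i = f' i) : CW f W = CW f' W := by
  have e : ∀ w ∈ W, ev f w = ev f' w := fun w hw => ev_congr fun i hi => h i (inL_iff.1 (allL_iff.1 c w hw) i hi)
  exact le_antisymm (CW_le.2 fun w hw => e w hw ▸ mem_CW hw) (CW_le.2 fun w hw => e w hw ▸ mem_CW hw)
theorem ev_bc (v i a : ℕ) (r : List ℕ) : ev f (bc v i a r) = f a ^ bt v i * ev f r := by
  rw [bc, bt, tb_eq]; cases v.testBit i <;> simp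
theorem ev_nfL (v : ℕ) (l : List ℕ) : ev f (nfL v l) = nf 6 f v * ev f l := by
  simp only [nfL, ev_bc, nf, lo, one_mul, mul_assoc]
theorem bc_mem {v i a : ℕ} {r : List ℕ} (ha : a ∈ I) (hr : ∀ c ∈ r, c ∈ I) : ∀ c ∈ bc v i a r, c ∈ I := by
  rw [bc]; cases tb v i
  · exact hr
  · exact List.forall_mem_cons.2 ⟨ha, hr⟩
end

/-- the pair given by a word -/
scoped notation:max "𝔼" g:max => ev (pr γ g)
/-- the group generated by pairs of letters -/
scoped notation:max "𝔾" g:max => gen (pr γ g)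
/-- the group generated by pairs of words -/
scoped notation:max "𝕎" g:max => CW (pr γ g)

section
variable {G : Type*} [Group G] {g : ℕ → G} {F S : Subgroup (He × G)} {u v w m : List ℕ} {W U M : List (List ℕ)}

theorem E_fst : (𝔼 g w).1 = ev γ w := map_ev (MonoidHom.fst He G) _ w
theorem E_snd : (𝔼 g w).2 = ev g w := map_ev (MonoidHom.snd He G) _ w
theorem E_eq : 𝔼 g w = (ev γ w, ev g w) := Prod.ext E_fst E_snd

theorem funE (h : Fun F) (hu : 𝔼 g u ∈ F) (hv : 𝔼 g v ∈ F) (c : eqH u v = true) : 𝔼 g u = 𝔼 g v :=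
  h.eq hu hv (by rw [E_fst, E_fst, eqH_iff.1 c])
theorem funG (h : Fun F) (hu : 𝔼 g u ∈ F) (hv : 𝔼 g v ∈ F) (c : eqH u v = true) : ev g u = ev g v := by
  rw [← E_snd, funE h hu hv c, E_snd]
theorem coE (h : CoFun F) (hu : 𝔼 g u ∈ F) (hv : 𝔼 g v ∈ F) (e : ev g u = ev g v) : eqH u v = true :=
  eqH_iff.2 (by rw [← E_fst (g := g), h.eq hu hv (by rw [E_snd, E_snd, e]), E_fst])
/-- equality of words in the letters `I` -/
noncomputable def eqI (I u v : List ℕ) : Bool := an (inL I u) (an (inL I v) (eqH u v))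
theorem eqE {I : List ℕ} (h : Fun (𝔾 g I)) (c : eqI I u v = true) : 𝔼 g u = 𝔼 g v := by
  simp only [eqI, an_iff] at c; exact funE h (ev_gen c.1) (ev_gen c.2.1) c.2.2
theorem eqG {I : List ℕ} (h : Fun (𝔾 g I)) (c : eqI I u v = true) : ev g u = ev g v := by
  rw [← E_snd, eqE h c, E_snd]

theorem cent_of (h : Fun F) {δ : G} (hd : ((1 : He), δ) ∈ 𝐍(F)) {s : He × G} (hs : s ∈ F) : δ * s.2 = s.2 * δ :=
  mul_inv_eq_iff_eq_mul.1 (congrArg Prod.snd (h.eq (conj_mem_of_mem_normalizer hd hs) hs (by simp)))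
theorem cent_CW (h : Fun (𝕎 g W)) {δ : G} (hd : ((1 : He), δ) ∈ 𝐍(𝕎 g W)) :
    ∀ w ∈ W, δ * ev g w = ev g w * δ := fun _ hw => E_snd (g := g) ▸ cent_of h hd (mem_CW hw)
theorem fun_ext (h : Fun (𝕎 g W)) (hc : ∀ δ, (∀ w ∈ W, δ * ev g w = ev g w * δ) → δ = 1)
    (hF : F ≤ 𝐍(𝕎 g W)) : Fun F := fun δ hd => hc δ (cent_CW h (hF hd))
theorem cj_mem (h : Fun F) (hm : 𝔼 g m * 𝔼 g w * (𝔼 g m)⁻¹ ∈ F) (hu : 𝔼 g u ∈ F)
    (c : eqH (m ++ w) (u ++ m) = true) : 𝔼 g m * 𝔼 g w * (𝔼 g m)⁻¹ = 𝔼 g u :=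
  h.eq hm hu (by
    have := eqH_iff.1 c
    rw [ev_append, ev_append] at this
    simp only [Prod.fst_mul, Prod.fst_inv, E_fst, this, mul_inv_cancel_right])
theorem co_cm (h : CoFun F) (hm : 𝔼 g m * 𝔼 g w * (𝔼 g m)⁻¹ ∈ F) (hw : 𝔼 g w ∈ F)
    (e : ev g m * ev g w = ev g w * ev g m) : cm m w = true := by
  have := congrArg Prod.fst (h.eq hm hw (by simp only [Prod.snd_mul, Prod.snd_inv, E_snd, e, mul_inv_cancel_right]))
  simp only [Prod.fst_mul, Prod.fst_inv, E_fst] at this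
  exact eqH_iff.2 (by rw [ev_append, ev_append, mul_inv_eq_iff_eq_mul.1 this])
theorem le_of_inW (h : Fun F) (hM : 𝕎 g M ≤ F) (hW : 𝕎 g W ≤ F) (c : inW M W U = true) :
    𝕎 g W ≤ 𝕎 g M := CW_le.2 fun w hw => by
  obtain ⟨u, -, e⟩ := exL_iff.1 (allL_iff.1 c w hw)
  exact funE h (hW (mem_CW hw)) (hM (fl_mem u)) e ▸ fl_mem u
theorem nrm [Finite G] (h : Fun F) (hW : 𝕎 g W ≤ F) (hm : ∀ w ∈ W, 𝔼 g m * 𝔼 g w * (𝔼 g m)⁻¹ ∈ F)
    (c : nrmB W m U = true) : 𝔼 g m ∈ 𝐍(𝕎 g W) := norm_CW fun w hw => by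
  obtain ⟨u, -, e⟩ := exL_iff.1 (allL_iff.1 c w hw)
  exact cj_mem h (hm w hw) (hW (fl_mem u)) e ▸ fl_mem u
theorem nrm' [Finite G] (h : Fun F) (hW : 𝕎 g W ≤ F) (hm : 𝔼 g m ∈ F)
    (c : nrmB W m U = true) : 𝔼 g m ∈ 𝐍(𝕎 g W) :=
  nrm h hW (fun _ hw => mul_mem (mul_mem hm (hW (mem_CW hw))) (inv_mem hm)) c
theorem nrmI [Finite G] {I : List ℕ} (h : Fun (𝔾 g I))
    (c : an (allL (inL I) W) (an (inL I m) (nrmB W m U)) = true) : 𝔼 g m ∈ 𝐍(𝕎 g W) := by
  simp only [an_iff] at c; exact nrm' h (CW_gen c.1) (ev_gen c.2.1) c.2.2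
theorem fun_cyc (h : Fun F) {a : He × G} (ha : a ∈ 𝐍(F)) (h3 : a ^ 3 = 1) (hn : ∀ s ∈ F, s.1 ≠ a.1) :
    Fun (F ⊔ zpowers a) := fun δ hd => by
  obtain ⟨s, hs, _, ⟨k, rfl⟩, e⟩ := (mem_sup_of_norm_right (zpowers_le.2 ha)).1 hd
  have e3 : a ^ (3 : ℤ) = 1 := (zpow_natCast a 3).trans h3
  have : a ^ k = a ^ (k % 3) := by
    conv_lhs => rw [← Int.mul_ediv_add_emod k 3, zpow_add, zpow_mul, e3, one_zpow, one_mul]
  simp only [this] at e
  have e1 := congrArg Prod.fst e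
  obtain h0 | h0 | h0 : k % 3 = 0 ∨ k % 3 = 1 ∨ k % 3 = 2 := by omega
  · rw [h0, zpow_zero, mul_one] at e; exact h δ (e ▸ hs)
  · rw [h0, zpow_one] at e1
    exact absurd (eq_inv_of_mul_eq_one_right e1).symm (hn _ (inv_mem hs))
  · rw [h0] at e1
    refine absurd ?_ (hn _ hs)
    have e2 : a.1 * (a ^ (2 : ℤ)).1 = 1 := by rw [← Prod.fst_mul, ← zpow_one_add]; exact congrArg Prod.fst e3
    exact (eq_inv_of_mul_eq_one_left e1).trans (eq_inv_of_mul_eq_one_left e2).symm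
end

end CA.He
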