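import Cfsg.Agent.Lib.He.HT
import Cfsg.Agent.Lib.Co.Three
import Cfsg.Agent.Lib.Co.C7

/-!
The local hypotheses in the centraliser of an element of order seven of a group of Monster type.
-/

set_option autoImplicit false

namespace CA.He
open Subgroup CA CA.Co CA.Gol CA.Ex2 Cfsg CA.Co.C7
open CA.CoT (ES nf lo gen qI bt pat nf_mem map_nf mem_gen gen_le)
open scoped Matrix

local notation "β" => pmC σ
local notation "dd" => tv 6 DT
local notation "uu" => tv 6 UT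

theorem g0 : coM hM ∈ 𝐂[β] := coM_cent hM (by rw [σ, code_m24]; decide +kernel)
theorem g1 : coN 0x8767ef d1_in ∈ 𝐂[β] := coN_cent (by decide +kernel) d1_in (code_m24 c_in) (by decide +kernel)
theorem a0 (m : ℕ) : FX.am uu dd (coM hM) *ᵥ bits 6 m = bits 6 (xorSel T0 m 6) :=
  am_mulVec (rep_coM hM) hF (by decide +kernel) m
theorem a1 (m : ℕ) : FX.am uu dd (coN 0x8767ef d1_in) *ᵥ bits 6 m = bits 6 (xorSel T1 m 6) :=
  am_mulVec (rep_coN (s := 0x8767ef) (by decide +kernel) d1_in) hF (by decide +kernel) m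

theorem h4 (v : LL) (hv : Cg (β • v : LL) v) (h64 : sqNorm (v : ZV) = 64) : kap dd v ∈ bset 6 (t4 6 RT T2) :=
  mem_t4 (by norm_num) hx hF (by decide +kernel) (bfs_tab (P := P2 β dd)
    (E := 0x19000b000a0011002d002e003d00230027003600140034003a0024001f002b003f00150032001e0009)
    (J := 0x110010000f000d000a0009000900080008000700060006000500040003000200020001000100000000) (K := 0x10ad68)
    (N := 21) (T := T2) (fun m => hx.p2 g0 (a0 m)) (fun m => hx.p2 g1 (a1 m))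
    (p2_root (U := 0x7e80808080807e80807e80808080808080807e807e7e7e7e) (code_m24 c_in) hF (by decide +kernel))
    (by decide +kernel)) hv h64

theorem h4' {x : V2 6} (hx : x ∈ bset 6 (t4 6 RT T2)) :
    ∃ v : LL, Cg (β • v : LL) v ∧ sqNorm (v : ZV) = 64 ∧ kap dd v = x := by
  obtain ⟨-, -, Y, h1, h2⟩ := C7.main
  have : Y = bset 6 (t4 6 RT T2) := Set.eq_of_subset_of_ncard_le (fun y hy => by
    obtain ⟨v, a, b, rfl⟩ := (h2 y).1 hy
    exact h4 v a b) (by rw [h1, ncard_bset]; decide +kernel) (Set.toFinite _)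
  exact (h2 x).1 (this ▸ hx)

theorem hU : allLt (fun i => isLP (fld 192 UT i)) 6 = true := by decide +kernel
theorem kap_frame : kap dd (E8 (pt 0)) = bits 6 1 :=
  ckK_spec (W := 0x808080808080808080808080808080808080808080808088) (by decide +kernel) (by decide +kernel) (by
    funext p; rw [coe_E8, e8_apply]; revert p; decide +kernel)

/-- a sign change and a test vector -/
def ck3 (m s d : ℕ) : Bool := isCode s && isLP d && decide (2 ∣ vz d 0) &&
  pk (fun j => sumZ (fun i => Bool.rec 0 (vz (fld 192 UT i) j) (tb m i)) 6) fun W =>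
    pk (fun j => Bool.rec (vz W j) (Int.neg (vz W j)) (tb s j)) fun W' => decide (¬ 16 ∣ dz W' d - dz W d)

theorem ck3_spec {m s d : ℕ} (h : ck3 m s d = true) : fs s ∈ CW ∧
    ¬ Cg (sgC (fs s) • lft uu (bits 6 m) : LL) (lft uu (bits 6 m)) ∧
    ¬ Cg (sgC (fs s) • lft uu (bits 6 m) : LL) (lft uu (bits 6 m) + E8 (pt 0) : LL) := by
  simp only [ck3, Bool.and_eq_true, decide_eq_true_eq] at h
  obtain ⟨⟨⟨h1, h2⟩, k, h3⟩, h5⟩ := h
  obtain ⟨W, h5, e1⟩ := pk_spec h5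
  obtain ⟨W', h5, e2⟩ := pk_spec h5
  have hc := fs_mem_CW h1
  have e3 : (lft uu (bits 6 m) : ZV) = vec W := by rw [e1]; funext p; exact coe_lft_bits hU m p
  have e4 : ((sgC (fs s) • lft uu (bits 6 m) : LL) : ZV) = vec W' := by
    rw [sgC_smul hc, e3, e2]; funext p
    simp only [sg, mem_fs, tb_eq, vec]
    cases s.testBit (ix p) <;> rfl
  have hd : vec d ∈ leechLattice := coe_lv h2 ▸ (lv d).2
  refine ⟨hc, fun e => of_decide_eq_true h5 ?_, fun e => of_decide_eq_true h5 ?_⟩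
  · simpa only [e3, e4, dot_vec] using e.dot hd
  · have := e.dot hd
    rw [e4, AddSubgroup.coe_add, e3, dot_add_left, coe_E8, dot_comm (e8 _), dot_e8, dot_vec, dot_vec,
      vec_pt _ (by norm_num), h3] at this
    omega

theorem ck3_all : ∀ m < 64, t4 6 RT T2 m = true → m = 1 ∨
    ck3 m 0x909298 0x808080828080808280808280808080828280808282808082 = true ∨
    ck3 m 0xac2814 0x828280808080808080828080808080808282808282808082 = true ∨
    ck3 m 0xa81458 0x808480808080808080808084808080808080808080808080 = true := by decide +kernel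

variable {G : Type*} [Group G] [Finite G] {Q : Subgroup G} {z b : G} {π : ↥𝐂[z] →* Spor.Co1} {r : G → LL → Prop}

theorem h3_frame (h : OS Q z π r β b) {k q : G} (hs : r (k * z * k⁻¹) (E8 (pt 0))) (h1 : q ∈ Q ⊓ cj k Q)
    (h2 : q ∈ 𝐂[b]) (hc : IsConj z q) : q = z ∨ q = k * z * k⁻¹ ∨ q = z * (k * z * k⁻¹) := by
  refine or_iff_not_imp_left.2 fun hz => ?_
  have hT := h.mt.lq.tri (h.mt.r_mem hs) (h.mt.conj_of_type4 hs (norm_e8 _)).2
  obtain ⟨v, v1, v2⟩ := h.mt.type4_of_conj h1.1 hc hz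
  have v3 := (h.cent_iff v1).1 h2
  obtain ⟨m, hm, e1, e2⟩ := h4 v v3 v2
  have v4 := hx.cg_lft v3
  rw [e2] at v4
  have key : ∀ s d, ck3 m s d = true → False := fun s d c => by
    obtain ⟨c1, c2, c3⟩ := ck3_spec c
    obtain ⟨y, hy, e⟩ := (mem_pmap_of_le inf_le_right).1 ((h.mt.frame_main hs).1.ge (mem_E1.2 ⟨_, c1, rfl⟩))
    have a := h.mt.equi hy.2 e (h.mt.r_cg v1 v4.symm)
    rcases hT.r.ez.conj_or hy.1 h1.2 with e' | e' <;> rw [e'] at a
    · exact c2 (h.mt.cg_of (h.mt.r_cg v1 v4.symm) a)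
    · exact c3 (h.mt.cg_of (h.mt.r_mul (h.mt.r_cg v1 v4.symm) hs) a)
  rcases ck3_all m hm e1 with rfl | c | c | c
  · have := (hx.cg_iff v3 ((mem_N0_iff (pt 0) (pt 0)).1 (pmC_mem_N0 σ))).2 (e2.trans kap_frame.symm)
    exact ((h.mt.cg_iff hs v1).1 this).imp_right fun e => e.trans hT.xz
  all_goals exact (key _ _ c).elim

theorem h3_all (h : OS Q z π r β b) {k q : G} (hk : k * z * k⁻¹ ∈ Q ⊓ 𝐂[b]) (hz : k * z * k⁻¹ ≠ z)
    (h1 : q ∈ Q ⊓ cj k Q) (h2 : q ∈ 𝐂[b]) (hc : IsConj z q) :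
    q = z ∨ q = k * z * k⁻¹ ∨ q = z * (k * z * k⁻¹) := by
  obtain ⟨t, ht⟩ := h.mt.exists_twist_frame hk.1 (isConj_iff.2 ⟨k, rfl⟩) hz
  have f7 : (244823040 : ℕ).factorization 7 = 1 := by
    rw [Nat.factorization_def _ (by norm_num)]; decide +kernel
  obtain ⟨b', π', r', e, ho, hr⟩ := (h.mt.twist t).exists_os_sylow ht (p := 7) (by norm_num) (by decide) f7
    (B := zpowers b) (by rw [cent_pair, zpowers_le]; exact ⟨h.bz, mem_cent1_comm.1 hk.2⟩) (by
      rw [cent_pair, (h.mt.twist t).fact_L ht (by norm_num), f7, Nat.card_zpowers, ← h.ob,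
        orderOf_injective pmC pmC_injective, C7.order]; rfl) C7.order
  exact h3_frame ho hr h1 (by rwa [← cent_zpowers, ← e, cent_zpowers]) hc

/-- the class of an element of `Q` fixed by `b` -/
def RK (r : G → LL → Prop) (b q : G) (m : ℕ) : Prop := q ∈ 𝐂[b] ∧ ∃ w, r q w ∧ kap dd w = bits 6 m

section
variable (h : OS Q z π r β b) {q q' : G} {m m' : ℕ}
include h
omit [Finite G] in
theorem RK.mul (a : RK r b q m) (a' : RK r b q' m') : RK r b (q * q') (m ^^^ m') := by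
  obtain ⟨h1, w, h2, h3⟩ := a
  obtain ⟨h1', w', h2', h3'⟩ := a'
  exact ⟨mul_mem h1 h1', _, h.mt.r_mul h2 h2', by rw [map_add, h3, h3', bits_xor]⟩
omit [Finite G] in
theorem RK.zp (a : q ∈ zpowers z) : RK r b q 0 :=
  ⟨zpowers_le.2 h.zb a, 0, h.mt.r_zero a (Cg.refl _), by rw [map_zero, bits_zero]⟩
theorem RK.eq (a : RK r b q m) (a' : RK r b q' m) : q' = q ∨ q' = q * z := by
  obtain ⟨h1, w, h2, h3⟩ := a
  obtain ⟨h1', w', h2', h3'⟩ := a'
  exact (h.mt.cg_iff h2 h2').1 ((hx.cg_iff ((h.cent_iff h2').1 h1') ((h.cent_iff h2).1 h1)).2 (h3'.trans h3.symm))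
theorem RK.ex (m : ℕ) : ∃ q, RK r b q m := by
  obtain ⟨q, hq⟩ := h.mt.r_ex' (lft uu (bits 6 m))
  exact ⟨q, (h.cent_iff hq).2 (hx.comb_fix _), _, hq, hx.kap_lft _⟩
omit [Finite G] in
theorem RK.mem (a : RK r b q m) : q ∈ Q ⊓ 𝐂[b] := ⟨h.mt.r_mem a.2.choose_spec.1, a.1⟩
theorem RK.sq (a : RK r b q m) (hm : m < 64) : q * q = 1 ↔ qf 6 RT m % 2 = 0 := by
  obtain ⟨h1, w, h2, h3⟩ := a
  have e1 := (hx.cg_lft ((h.cent_iff h2).1 h1)).norm (Subtype.property _)
  have e2 := norm_lft (RT := RT) (by norm_num) hU (by decide +kernel) hm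
  rw [h3] at e1
  rw [h.mt.sq_iff h2]; omega
theorem RK.conj (a : RK r b q m) (hm : m < 64) (hz : q ≠ z) : IsConj z q ↔ t4 6 RT T2 m = true := by
  obtain ⟨h1, w, h2, h3⟩ := a
  have f := (h.cent_iff h2).1 h1
  refine ⟨fun hc => ?_, fun hc => ?_⟩
  · obtain ⟨v, v1, v2⟩ := h.mt.type4_of_conj (h.mt.r_mem h2) hc hz
    rw [← bits_mem_bset (n := 6) hm, ← h3, kap_cg _ (h.mt.cg_of v1 h2)]
    exact h4 v ((h.cent_iff v1).1 h1) v2
  · obtain ⟨v, v1, v2, v3⟩ := h4' ((bits_mem_bset (n := 6) hm).2 hc)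
    exact (h.mt.conj_of_type4 (h.mt.r_cg h2 ((hx.cg_iff v1 f).2 (v3.trans h3.symm))) v2).1
theorem RK.act (a : RK r b q m) {y : G} (hy : y ∈ 𝐂[z] ⊓ 𝐂[b]) {g : Co0} (e : pel π y = g) {T : ℕ}
    (hT : FX.am uu dd g *ᵥ bits 6 m = bits 6 (xorSel T m 6)) : RK r b (y * q * y⁻¹) (xorSel T m 6) := by
  obtain ⟨h1, w, h2, h3⟩ := a
  exact ⟨mul_mem (mul_mem hy.2 h1) (inv_mem hy.2), _, h.mt.equi hy.1 e h2, by
    rw [hx.kap_smul g ((h.cent_iff h2).1 h1), h3, hT]⟩
end

/-- the hyperbolic basis -/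
def PH : ℕ := 0x8000004000010000003000020000001

theorem exists_ht {H : Type*} [Group H] {D : Subgroup G} {f : D →* H} (hD : D = 𝐂[b]) (hf : Function.Surjective f)
    (hk : pker f = zpowers b) (h : OS Q z π r β b) {s : G} (hs : r s (E8 (pt 0))) : ∃ g : ℕ → H, HT g := by
  haveI : Finite H := Finite.of_surjective f hf
  obtain ⟨hc, ⟨θ, θ1, θ2⟩, -⟩ := C7.main
  choose q hq using RK.ex h
  have ez := h.mt.ez
  let e : ℕ → G := fun i => if i = 8 then z else q (fld 24 PH i)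
  have e8 : e 8 = z := rfl
  have ei : ∀ i < 6, RK r b (e i) (fld 24 PH i) := fun i hi => by
    simp only [e, if_neg (show i ≠ 8 by omega)]; exact hq _
  have hR : Q ⊓ 𝐂[b] ≤ D := hD ▸ inf_le_right
  have em : ∀ i, e i ∈ Q ⊓ 𝐂[b] := fun i => by
    by_cases h8 : i = 8
    · rw [h8]; exact ⟨ez.mem, h.zb⟩
    · simp only [e, if_neg h8]; exact (hq _).mem h
  have hlo : ∀ v, ∀ k ≤ 6, RK r b (lo e v k) (xorSel PH v k) := fun v k hk => by
    induction k with
    | zero => exact RK.zp h (one_mem _)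
    | succ k ih =>
      refine (ih (by omega)).mul h ?_
      rw [bt, Gol.tb_eq]
      cases v.testBit k
      · exact RK.zp h (by simp)
      · simpa using ei k hk
  have hnf : ∀ v, RK r b (nf 6 e v) (xorSel PH v 6) := fun v => by
    have := (hlo v 6 le_rfl).mul h (RK.zp h (pow_mem (mem_zpowers z) (bt v 6)))
    rwa [Nat.xor_zero] at this
  have sq : ∀ i < 6, e i * e i = 1 := fun i hi => ((ei i hi).sq h (by revert i; decide)).2 (by revert i; decide +kernel)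
  have es : ES 6 0 e := ⟨by decide, by decide, ez.sq, fun i _ => (mem_cent_iff.1 ez.memC _ (em i).1),
    fun i hi => by rw [sq i hi, show bt 0 i = 0 by simp [bt]]; simp, fun i hi j hj => by
      have c : (qf 6 RT (fld 24 PH i ^^^ fld 24 PH j) % 2 = 0 ∧ pat i j = 0) ∨
        (¬ qf 6 RT (fld 24 PH i ^^^ fld 24 PH j) % 2 = 0 ∧ pat i j = 1) := by revert i j; decide +kernel
      have a := ((ei i hi).mul h (ei j (by omega))).sq h (by clear c; revert i j; decide +kernel)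
      have iv : (e i * e j)⁻¹ = e j * e i := by
        rw [mul_inv_rev, inv_eq_of_mul_eq_one_right (sq i hi), inv_eq_of_mul_eq_one_right (sq j (by omega))]
      rcases c with ⟨c, p⟩ | ⟨c, p⟩ <;> rw [p, ← iv]
      · simpa using eq_inv_of_mul_eq_one_left (a.2 c)
      · rw [pow_one, e8, ← (ez.sq_or (mul_mem (em i).1 (em j).1)).resolve_left (mt a.1 c)]; group⟩
  let e' : ℕ → D := fun i => ⟨e i, hR (em i)⟩
  have es' : ES 6 0 e' := ⟨es.hn, es.hε, Subtype.ext es.zz, fun i hi => Subtype.ext (es.zc i hi),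
    fun i hi => Subtype.ext (es.sq i hi), fun i hi j hj => Subtype.ext (es.cm i hi j hj)⟩
  have gi : ∀ i, f (e' i) = pel f (e i) := fun i => (pel_of_mem f _).symm
  have gn : ∀ v, nf 6 (fun i => f (e' i)) v = pel f (nf 6 e v) := fun v => by
    rw [← map_nf, ← pel_coe f, show ((nf 6 e' v : D) : G) = nf 6 e v from map_nf D.subtype 6 e' v]
  have hl := h.lq hD hf hk hc hs
  have g8 : f (e' 8) = pel f z := gi 8
  have eQ : gen (fun i => f (e' i)) (qI 6) = pmap f (Q ⊓ 𝐂[b]) := eq_of_le_of_card_le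
    ((gen_le _).2 fun i _ => gi i ▸ pel_mem_pmap f (em i))
    (by rw [h.card_pmap_R hD hk hc, (es'.map f).card_eq (g8 ▸ hl.ez.ne_one)])
  refine ⟨fun i => f (e' i), es'.map f, by rw [eQ, g8]; exact hl, ?_, fun v hv => ?_, fun i hi k e1 x hx c => ?_,
    fun j hj => ?_⟩
  · haveI := hl.normalIn.normal_subgroupOf
    obtain ⟨φ⟩ := h.exists_equiv hD hf hk θ θ1 θ2
    rw [g8, card_eq_card_quotient_mul_card_subgroup ((pmap f (Q ⊓ 𝐂[b])).subgroupOf 𝐂[pel f z]),
      Nat.card_congr φ.toEquiv, card_L3, card_subgroupOf, inf_eq_left.2 hl.normalIn.1, h.card_pmap_R hD hk hc]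
    rfl
  · rw [g8, gn, h.isConj_iff' hD hf hk ((hnf v).mem h)]
    by_cases h64 : v = 64
    · rw [h64, show nf 6 e 64 = z from CoT.nf_top 6 e]; exact iff_of_true (IsConj.refl _) (by decide)
    · rw [(hnf v).conj h (by revert v; decide) fun e1 =>
        h64 (es.nf_inj ez.ne_one hv (by decide) (e1.trans (CoT.nf_top 6 e).symm))]
      revert v; decide +kernel
  · obtain ⟨⟨k, hk'⟩, rfl⟩ := hf k
    have i6 : i < 6 := by simp at hi; omega
    rw [g8, gi, ← pel_of_mem f hk'] at e1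
    have e2 := h.conj_of_pel hD hk hk' (hR (em i)) (sq i i6) e1
    rw [eQ] at hx
    obtain ⟨x, x1, rfl⟩ := (mem_pmap_of_le hR).1 hx.1
    obtain ⟨x', x2, e3⟩ := (mem_pmap_of_le hR).1 (mem_cj.1 hx.2)
    have c' := (h.isConj_iff' hD hf hk x1).1 (g8 ▸ c)
    have xx : x * x = 1 := by obtain ⟨a, rfl⟩ := isConj_iff.1 c'; rw [conj_mul, ez.sq]; simp
    have xD := mul_mem (mul_mem (inv_mem hk') (hR x1)) hk'
    have e4 : pel f x' = pel f (k⁻¹ * x * k) := by
      rw [e3, pel_mul f (mul_mem (inv_mem hk') (hR x1)) hk', pel_mul f (inv_mem hk') (hR x1), pel_inv f hk',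
        pel_of_mem f hk']
    have s1 : k⁻¹ * x * k * (k⁻¹ * x * k) = 1 := by
      calc _ = k⁻¹ * (x * x) * k := by group
        _ = 1 := by rw [xx]; simp
    have s2 : x' * x' = 1 := mem_bot.1 (h.inf_B ▸ mem_inf.2 ⟨mul_mem x2.1 x2.1, by
      rw [← hk, mem_pker]
      exact ⟨mul_mem (hR x2) (hR x2), by
        rw [pel_mul f (hR x2) (hR x2), e4, ← pel_mul f xD xD, s1, pel_one]⟩⟩)
    have e5 := h.eq_of_pel hD hk (hR x2) xD s2 s1 e4
    have := h3_all h (k := k) (e2 ▸ em i) (fun e6 => by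
      have := es.nf_inj ez.ne_one (x₁ := 2 ^ i) (x₂ := 2 ^ 6) (Nat.pow_lt_pow_right one_lt_two (by omega)) (by decide) (by
        rw [CoT.nf_two_pow e i6, CoT.nf_top, ← e2, e6, e8])
      exact i6.ne (Nat.pow_right_injective le_rfl this)) ⟨x1.1, mem_cj.2 (e5 ▸ x2.1)⟩ x1.2 c'
    rw [gi 8, gi i, ← pel_mul f (hR (em 8)) (hR (em i)), ← e2, e8]
    rcases this with a | a | a <;> simp [a]
  · have key : ∀ g ∈ 𝐂[β], ∀ T, (∀ m, FX.am uu dd g *ᵥ bits 6 m = bits 6 (xorSel T m 6)) →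
        (∀ i < 6, xorSel T (fld 24 PH i) 6 = xorSel PH (TA j i) 6) → ∃ y ∈ 𝐂[f (e' 8)], ∀ i < 6,
          y * f (e' i) * y⁻¹ = nf 6 (fun i => f (e' i)) (TA j i) ∨
          y * f (e' i) * y⁻¹ = nf 6 (fun i => f (e' i)) (TA j i) * f (e' 8) := fun g hg T h1 h2 => by
      obtain ⟨y, hy, e1⟩ := h.lift hg
      have yD : y ∈ D := hD ▸ hy.2
      refine ⟨pel f y, by rw [g8, ← h.pmap_C hD hf hk]; exact pel_mem_pmap f hy, fun i hi => ?_⟩
      rw [gi, gn, gi 8, ← pel_conj f yD (hR (em i)), ← pel_mul f (hR ((hnf _).mem h)) (hR (em 8))]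
      exact ((hnf (TA j i)).eq h (h2 i hi ▸ (ei i hi).act h hy e1 (h1 _))).imp (congrArg _) (congrArg _)
    obtain rfl | rfl : j = 0 ∨ j = 1 := by omega
    · exact key _ g0 T0 a0 (by decide +kernel)
    · exact key _ g1 T1 a1 (by decide +kernel)

end CA.He
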